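import Cfsg.Agent.H41.C3TC.Kw.RTab

set_option autoImplicit false
set_option linter.all false
set_option Elab.async false

namespace Cfsg.Agent.H41.C3P

open Cfsg.Agent.H35

theorem tc3kw_rchk_0 : allR tc3kw_rf 80234 7 (0 * 2 ^ 7) = true := by decide +kernel
theorem tc3kw_rchk_1 : allR tc3kw_rf 80234 7 (1 * 2 ^ 7) = true := by decide +kernel
theorem tc3kw_rchk_2 : allR tc3kw_rf 80234 7 (2 * 2 ^ 7) = true := by decide +kernel
theorem tc3kw_rchk_3 : allR tc3kw_rf 80234 7 (3 * 2 ^ 7) = true := by decide +kernel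
theorem tc3kw_rchk_4 : allR tc3kw_rf 80234 7 (4 * 2 ^ 7) = true := by decide +kernel
theorem tc3kw_rchk_5 : allR tc3kw_rf 80234 7 (5 * 2 ^ 7) = true := by decide +kernel
theorem tc3kw_rchk_6 : allR tc3kw_rf 80234 7 (6 * 2 ^ 7) = true := by decide +kernel
theorem tc3kw_rchk_7 : allR tc3kw_rf 80234 7 (7 * 2 ^ 7) = true := by decide +kernel
theorem tc3kw_rchk_8 : allR tc3kw_rf 80234 7 (8 * 2 ^ 7) = true := by decide +kernel
theorem tc3kw_rchk_9 : allR tc3kw_rf 80234 7 (9 * 2 ^ 7) = true := by decide +kernel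
theorem tc3kw_rchk_10 : allR tc3kw_rf 80234 7 (10 * 2 ^ 7) = true := by decide +kernel
theorem tc3kw_rchk_11 : allR tc3kw_rf 80234 7 (11 * 2 ^ 7) = true := by decide +kernel
theorem tc3kw_rchk_12 : allR tc3kw_rf 80234 7 (12 * 2 ^ 7) = true := by decide +kernel
theorem tc3kw_rchk_13 : allR tc3kw_rf 80234 7 (13 * 2 ^ 7) = true := by decide +kernel
theorem tc3kw_rchk_14 : allR tc3kw_rf 80234 7 (14 * 2 ^ 7) = true := by decide +kernel
theorem tc3kw_rchk_15 : allR tc3kw_rf 80234 7 (15 * 2 ^ 7) = true := by decide +kernel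
theorem tc3kw_rchk_16 : allR tc3kw_rf 80234 7 (16 * 2 ^ 7) = true := by decide +kernel
theorem tc3kw_rchk_17 : allR tc3kw_rf 80234 7 (17 * 2 ^ 7) = true := by decide +kernel
theorem tc3kw_rchk_18 : allR tc3kw_rf 80234 7 (18 * 2 ^ 7) = true := by decide +kernel
theorem tc3kw_rchk_19 : allR tc3kw_rf 80234 7 (19 * 2 ^ 7) = true := by decide +kernel

theorem tc3kw_rfile_0 : ∀ k, k < 20 → 0 ≤ k → allR tc3kw_rf 80234 7 (k * 2 ^ 7) = true := by
  intro k h1 h2
  interval_cases k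
  · exact tc3kw_rchk_0
  · exact tc3kw_rchk_1
  · exact tc3kw_rchk_2
  · exact tc3kw_rchk_3
  · exact tc3kw_rchk_4
  · exact tc3kw_rchk_5
  · exact tc3kw_rchk_6
  · exact tc3kw_rchk_7
  · exact tc3kw_rchk_8
  · exact tc3kw_rchk_9
  · exact tc3kw_rchk_10
  · exact tc3kw_rchk_11
  · exact tc3kw_rchk_12
  · exact tc3kw_rchk_13
  · exact tc3kw_rchk_14
  · exact tc3kw_rchk_15
  · exact tc3kw_rchk_16
  · exact tc3kw_rchk_17
  · exact tc3kw_rchk_18
  · exact tc3kw_rchk_19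

end Cfsg.Agent.H41.C3P
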