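import Cfsg.Agent.H41.C3TC.Kw.RTab

set_option autoImplicit false
set_option linter.all false
set_option Elab.async false

namespace Cfsg.Agent.H41.C3P

open Cfsg.Agent.H35

theorem tc3kw_rchk_20 : allR tc3kw_rf 80234 7 (20 * 2 ^ 7) = true := by decide +kernel
theorem tc3kw_rchk_21 : allR tc3kw_rf 80234 7 (21 * 2 ^ 7) = true := by decide +kernel
theorem tc3kw_rchk_22 : allR tc3kw_rf 80234 7 (22 * 2 ^ 7) = true := by decide +kernel
theorem tc3kw_rchk_23 : allR tc3kw_rf 80234 7 (23 * 2 ^ 7) = true := by decide +kernel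
theorem tc3kw_rchk_24 : allR tc3kw_rf 80234 7 (24 * 2 ^ 7) = true := by decide +kernel
theorem tc3kw_rchk_25 : allR tc3kw_rf 80234 7 (25 * 2 ^ 7) = true := by decide +kernel
theorem tc3kw_rchk_26 : allR tc3kw_rf 80234 7 (26 * 2 ^ 7) = true := by decide +kernel
theorem tc3kw_rchk_27 : allR tc3kw_rf 80234 7 (27 * 2 ^ 7) = true := by decide +kernel
theorem tc3kw_rchk_28 : allR tc3kw_rf 80234 7 (28 * 2 ^ 7) = true := by decide +kernel
theorem tc3kw_rchk_29 : allR tc3kw_rf 80234 7 (29 * 2 ^ 7) = true := by decide +kernel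
theorem tc3kw_rchk_30 : allR tc3kw_rf 80234 7 (30 * 2 ^ 7) = true := by decide +kernel
theorem tc3kw_rchk_31 : allR tc3kw_rf 80234 7 (31 * 2 ^ 7) = true := by decide +kernel
theorem tc3kw_rchk_32 : allR tc3kw_rf 80234 7 (32 * 2 ^ 7) = true := by decide +kernel
theorem tc3kw_rchk_33 : allR tc3kw_rf 80234 7 (33 * 2 ^ 7) = true := by decide +kernel
theorem tc3kw_rchk_34 : allR tc3kw_rf 80234 7 (34 * 2 ^ 7) = true := by decide +kernel
theorem tc3kw_rchk_35 : allR tc3kw_rf 80234 7 (35 * 2 ^ 7) = true := by decide +kernel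
theorem tc3kw_rchk_36 : allR tc3kw_rf 80234 7 (36 * 2 ^ 7) = true := by decide +kernel
theorem tc3kw_rchk_37 : allR tc3kw_rf 80234 7 (37 * 2 ^ 7) = true := by decide +kernel
theorem tc3kw_rchk_38 : allR tc3kw_rf 80234 7 (38 * 2 ^ 7) = true := by decide +kernel
theorem tc3kw_rchk_39 : allR tc3kw_rf 80234 7 (39 * 2 ^ 7) = true := by decide +kernel

theorem tc3kw_rfile_1 : ∀ k, k < 40 → 20 ≤ k → allR tc3kw_rf 80234 7 (k * 2 ^ 7) = true := by
  intro k h1 h2
  interval_cases k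
  · exact tc3kw_rchk_20
  · exact tc3kw_rchk_21
  · exact tc3kw_rchk_22
  · exact tc3kw_rchk_23
  · exact tc3kw_rchk_24
  · exact tc3kw_rchk_25
  · exact tc3kw_rchk_26
  · exact tc3kw_rchk_27
  · exact tc3kw_rchk_28
  · exact tc3kw_rchk_29
  · exact tc3kw_rchk_30
  · exact tc3kw_rchk_31
  · exact tc3kw_rchk_32
  · exact tc3kw_rchk_33
  · exact tc3kw_rchk_34
  · exact tc3kw_rchk_35
  · exact tc3kw_rchk_36
  · exact tc3kw_rchk_37
  · exact tc3kw_rchk_38
  · exact tc3kw_rchk_39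

end Cfsg.Agent.H41.C3P
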