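import Cfsg.Agent.H41.C3TC.Kw.RTab

set_option autoImplicit false
set_option linter.all false
set_option Elab.async false

namespace Cfsg.Agent.H41.C3P

open Cfsg.Agent.H35

theorem tc3kw_rchk_200 : allR tc3kw_rf 80234 7 (200 * 2 ^ 7) = true := by decide +kernel
theorem tc3kw_rchk_201 : allR tc3kw_rf 80234 7 (201 * 2 ^ 7) = true := by decide +kernel
theorem tc3kw_rchk_202 : allR tc3kw_rf 80234 7 (202 * 2 ^ 7) = true := by decide +kernel
theorem tc3kw_rchk_203 : allR tc3kw_rf 80234 7 (203 * 2 ^ 7) = true := by decide +kernel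
theorem tc3kw_rchk_204 : allR tc3kw_rf 80234 7 (204 * 2 ^ 7) = true := by decide +kernel
theorem tc3kw_rchk_205 : allR tc3kw_rf 80234 7 (205 * 2 ^ 7) = true := by decide +kernel
theorem tc3kw_rchk_206 : allR tc3kw_rf 80234 7 (206 * 2 ^ 7) = true := by decide +kernel
theorem tc3kw_rchk_207 : allR tc3kw_rf 80234 7 (207 * 2 ^ 7) = true := by decide +kernel
theorem tc3kw_rchk_208 : allR tc3kw_rf 80234 7 (208 * 2 ^ 7) = true := by decide +kernel
theorem tc3kw_rchk_209 : allR tc3kw_rf 80234 7 (209 * 2 ^ 7) = true := by decide +kernel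
theorem tc3kw_rchk_210 : allR tc3kw_rf 80234 7 (210 * 2 ^ 7) = true := by decide +kernel
theorem tc3kw_rchk_211 : allR tc3kw_rf 80234 7 (211 * 2 ^ 7) = true := by decide +kernel
theorem tc3kw_rchk_212 : allR tc3kw_rf 80234 7 (212 * 2 ^ 7) = true := by decide +kernel
theorem tc3kw_rchk_213 : allR tc3kw_rf 80234 7 (213 * 2 ^ 7) = true := by decide +kernel
theorem tc3kw_rchk_214 : allR tc3kw_rf 80234 7 (214 * 2 ^ 7) = true := by decide +kernel
theorem tc3kw_rchk_215 : allR tc3kw_rf 80234 7 (215 * 2 ^ 7) = true := by decide +kernel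
theorem tc3kw_rchk_216 : allR tc3kw_rf 80234 7 (216 * 2 ^ 7) = true := by decide +kernel
theorem tc3kw_rchk_217 : allR tc3kw_rf 80234 7 (217 * 2 ^ 7) = true := by decide +kernel
theorem tc3kw_rchk_218 : allR tc3kw_rf 80234 7 (218 * 2 ^ 7) = true := by decide +kernel
theorem tc3kw_rchk_219 : allR tc3kw_rf 80234 7 (219 * 2 ^ 7) = true := by decide +kernel

theorem tc3kw_rfile_10 : ∀ k, k < 220 → 200 ≤ k → allR tc3kw_rf 80234 7 (k * 2 ^ 7) = true := by
  intro k h1 h2
  interval_cases k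
  · exact tc3kw_rchk_200
  · exact tc3kw_rchk_201
  · exact tc3kw_rchk_202
  · exact tc3kw_rchk_203
  · exact tc3kw_rchk_204
  · exact tc3kw_rchk_205
  · exact tc3kw_rchk_206
  · exact tc3kw_rchk_207
  · exact tc3kw_rchk_208
  · exact tc3kw_rchk_209
  · exact tc3kw_rchk_210
  · exact tc3kw_rchk_211
  · exact tc3kw_rchk_212
  · exact tc3kw_rchk_213
  · exact tc3kw_rchk_214
  · exact tc3kw_rchk_215
  · exact tc3kw_rchk_216
  · exact tc3kw_rchk_217
  · exact tc3kw_rchk_218
  · exact tc3kw_rchk_219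

end Cfsg.Agent.H41.C3P
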