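import Cfsg.Agent.H41.C3TC.Kw.RTab

set_option autoImplicit false
set_option linter.all false
set_option Elab.async false

namespace Cfsg.Agent.H41.C3P

open Cfsg.Agent.H35

theorem tc3kw_rchk_220 : allR tc3kw_rf 80234 7 (220 * 2 ^ 7) = true := by decide +kernel
theorem tc3kw_rchk_221 : allR tc3kw_rf 80234 7 (221 * 2 ^ 7) = true := by decide +kernel
theorem tc3kw_rchk_222 : allR tc3kw_rf 80234 7 (222 * 2 ^ 7) = true := by decide +kernel
theorem tc3kw_rchk_223 : allR tc3kw_rf 80234 7 (223 * 2 ^ 7) = true := by decide +kernel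
theorem tc3kw_rchk_224 : allR tc3kw_rf 80234 7 (224 * 2 ^ 7) = true := by decide +kernel
theorem tc3kw_rchk_225 : allR tc3kw_rf 80234 7 (225 * 2 ^ 7) = true := by decide +kernel
theorem tc3kw_rchk_226 : allR tc3kw_rf 80234 7 (226 * 2 ^ 7) = true := by decide +kernel
theorem tc3kw_rchk_227 : allR tc3kw_rf 80234 7 (227 * 2 ^ 7) = true := by decide +kernel
theorem tc3kw_rchk_228 : allR tc3kw_rf 80234 7 (228 * 2 ^ 7) = true := by decide +kernel
theorem tc3kw_rchk_229 : allR tc3kw_rf 80234 7 (229 * 2 ^ 7) = true := by decide +kernel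
theorem tc3kw_rchk_230 : allR tc3kw_rf 80234 7 (230 * 2 ^ 7) = true := by decide +kernel
theorem tc3kw_rchk_231 : allR tc3kw_rf 80234 7 (231 * 2 ^ 7) = true := by decide +kernel
theorem tc3kw_rchk_232 : allR tc3kw_rf 80234 7 (232 * 2 ^ 7) = true := by decide +kernel
theorem tc3kw_rchk_233 : allR tc3kw_rf 80234 7 (233 * 2 ^ 7) = true := by decide +kernel
theorem tc3kw_rchk_234 : allR tc3kw_rf 80234 7 (234 * 2 ^ 7) = true := by decide +kernel
theorem tc3kw_rchk_235 : allR tc3kw_rf 80234 7 (235 * 2 ^ 7) = true := by decide +kernel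
theorem tc3kw_rchk_236 : allR tc3kw_rf 80234 7 (236 * 2 ^ 7) = true := by decide +kernel
theorem tc3kw_rchk_237 : allR tc3kw_rf 80234 7 (237 * 2 ^ 7) = true := by decide +kernel
theorem tc3kw_rchk_238 : allR tc3kw_rf 80234 7 (238 * 2 ^ 7) = true := by decide +kernel
theorem tc3kw_rchk_239 : allR tc3kw_rf 80234 7 (239 * 2 ^ 7) = true := by decide +kernel

theorem tc3kw_rfile_11 : ∀ k, k < 240 → 220 ≤ k → allR tc3kw_rf 80234 7 (k * 2 ^ 7) = true := by
  intro k h1 h2
  interval_cases k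
  · exact tc3kw_rchk_220
  · exact tc3kw_rchk_221
  · exact tc3kw_rchk_222
  · exact tc3kw_rchk_223
  · exact tc3kw_rchk_224
  · exact tc3kw_rchk_225
  · exact tc3kw_rchk_226
  · exact tc3kw_rchk_227
  · exact tc3kw_rchk_228
  · exact tc3kw_rchk_229
  · exact tc3kw_rchk_230
  · exact tc3kw_rchk_231
  · exact tc3kw_rchk_232
  · exact tc3kw_rchk_233
  · exact tc3kw_rchk_234
  · exact tc3kw_rchk_235
  · exact tc3kw_rchk_236
  · exact tc3kw_rchk_237
  · exact tc3kw_rchk_238
  · exact tc3kw_rchk_239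

end Cfsg.Agent.H41.C3P
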