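import Cfsg.Agent.H41.C3TC.Kw.RTab

set_option autoImplicit false
set_option linter.all false
set_option Elab.async false

namespace Cfsg.Agent.H41.C3P

open Cfsg.Agent.H35

theorem tc3kw_rchk_240 : allR tc3kw_rf 80234 7 (240 * 2 ^ 7) = true := by decide +kernel
theorem tc3kw_rchk_241 : allR tc3kw_rf 80234 7 (241 * 2 ^ 7) = true := by decide +kernel
theorem tc3kw_rchk_242 : allR tc3kw_rf 80234 7 (242 * 2 ^ 7) = true := by decide +kernel
theorem tc3kw_rchk_243 : allR tc3kw_rf 80234 7 (243 * 2 ^ 7) = true := by decide +kernel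
theorem tc3kw_rchk_244 : allR tc3kw_rf 80234 7 (244 * 2 ^ 7) = true := by decide +kernel
theorem tc3kw_rchk_245 : allR tc3kw_rf 80234 7 (245 * 2 ^ 7) = true := by decide +kernel
theorem tc3kw_rchk_246 : allR tc3kw_rf 80234 7 (246 * 2 ^ 7) = true := by decide +kernel
theorem tc3kw_rchk_247 : allR tc3kw_rf 80234 7 (247 * 2 ^ 7) = true := by decide +kernel
theorem tc3kw_rchk_248 : allR tc3kw_rf 80234 7 (248 * 2 ^ 7) = true := by decide +kernel
theorem tc3kw_rchk_249 : allR tc3kw_rf 80234 7 (249 * 2 ^ 7) = true := by decide +kernel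
theorem tc3kw_rchk_250 : allR tc3kw_rf 80234 7 (250 * 2 ^ 7) = true := by decide +kernel
theorem tc3kw_rchk_251 : allR tc3kw_rf 80234 7 (251 * 2 ^ 7) = true := by decide +kernel
theorem tc3kw_rchk_252 : allR tc3kw_rf 80234 7 (252 * 2 ^ 7) = true := by decide +kernel
theorem tc3kw_rchk_253 : allR tc3kw_rf 80234 7 (253 * 2 ^ 7) = true := by decide +kernel
theorem tc3kw_rchk_254 : allR tc3kw_rf 80234 7 (254 * 2 ^ 7) = true := by decide +kernel
theorem tc3kw_rchk_255 : allR tc3kw_rf 80234 7 (255 * 2 ^ 7) = true := by decide +kernel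
theorem tc3kw_rchk_256 : allR tc3kw_rf 80234 7 (256 * 2 ^ 7) = true := by decide +kernel
theorem tc3kw_rchk_257 : allR tc3kw_rf 80234 7 (257 * 2 ^ 7) = true := by decide +kernel
theorem tc3kw_rchk_258 : allR tc3kw_rf 80234 7 (258 * 2 ^ 7) = true := by decide +kernel
theorem tc3kw_rchk_259 : allR tc3kw_rf 80234 7 (259 * 2 ^ 7) = true := by decide +kernel

theorem tc3kw_rfile_12 : ∀ k, k < 260 → 240 ≤ k → allR tc3kw_rf 80234 7 (k * 2 ^ 7) = true := by
  intro k h1 h2
  interval_cases k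
  · exact tc3kw_rchk_240
  · exact tc3kw_rchk_241
  · exact tc3kw_rchk_242
  · exact tc3kw_rchk_243
  · exact tc3kw_rchk_244
  · exact tc3kw_rchk_245
  · exact tc3kw_rchk_246
  · exact tc3kw_rchk_247
  · exact tc3kw_rchk_248
  · exact tc3kw_rchk_249
  · exact tc3kw_rchk_250
  · exact tc3kw_rchk_251
  · exact tc3kw_rchk_252
  · exact tc3kw_rchk_253
  · exact tc3kw_rchk_254
  · exact tc3kw_rchk_255
  · exact tc3kw_rchk_256
  · exact tc3kw_rchk_257
  · exact tc3kw_rchk_258
  · exact tc3kw_rchk_259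

end Cfsg.Agent.H41.C3P
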