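import Cfsg.Agent.H41.C3TC.Kw.RTab

set_option autoImplicit false
set_option linter.all false
set_option Elab.async false

namespace Cfsg.Agent.H41.C3P

open Cfsg.Agent.H35

theorem tc3kw_rchk_260 : allR tc3kw_rf 80234 7 (260 * 2 ^ 7) = true := by decide +kernel
theorem tc3kw_rchk_261 : allR tc3kw_rf 80234 7 (261 * 2 ^ 7) = true := by decide +kernel
theorem tc3kw_rchk_262 : allR tc3kw_rf 80234 7 (262 * 2 ^ 7) = true := by decide +kernel
theorem tc3kw_rchk_263 : allR tc3kw_rf 80234 7 (263 * 2 ^ 7) = true := by decide +kernel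
theorem tc3kw_rchk_264 : allR tc3kw_rf 80234 7 (264 * 2 ^ 7) = true := by decide +kernel
theorem tc3kw_rchk_265 : allR tc3kw_rf 80234 7 (265 * 2 ^ 7) = true := by decide +kernel
theorem tc3kw_rchk_266 : allR tc3kw_rf 80234 7 (266 * 2 ^ 7) = true := by decide +kernel
theorem tc3kw_rchk_267 : allR tc3kw_rf 80234 7 (267 * 2 ^ 7) = true := by decide +kernel
theorem tc3kw_rchk_268 : allR tc3kw_rf 80234 7 (268 * 2 ^ 7) = true := by decide +kernel
theorem tc3kw_rchk_269 : allR tc3kw_rf 80234 7 (269 * 2 ^ 7) = true := by decide +kernel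
theorem tc3kw_rchk_270 : allR tc3kw_rf 80234 7 (270 * 2 ^ 7) = true := by decide +kernel
theorem tc3kw_rchk_271 : allR tc3kw_rf 80234 7 (271 * 2 ^ 7) = true := by decide +kernel
theorem tc3kw_rchk_272 : allR tc3kw_rf 80234 7 (272 * 2 ^ 7) = true := by decide +kernel
theorem tc3kw_rchk_273 : allR tc3kw_rf 80234 7 (273 * 2 ^ 7) = true := by decide +kernel
theorem tc3kw_rchk_274 : allR tc3kw_rf 80234 7 (274 * 2 ^ 7) = true := by decide +kernel
theorem tc3kw_rchk_275 : allR tc3kw_rf 80234 7 (275 * 2 ^ 7) = true := by decide +kernel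
theorem tc3kw_rchk_276 : allR tc3kw_rf 80234 7 (276 * 2 ^ 7) = true := by decide +kernel
theorem tc3kw_rchk_277 : allR tc3kw_rf 80234 7 (277 * 2 ^ 7) = true := by decide +kernel
theorem tc3kw_rchk_278 : allR tc3kw_rf 80234 7 (278 * 2 ^ 7) = true := by decide +kernel
theorem tc3kw_rchk_279 : allR tc3kw_rf 80234 7 (279 * 2 ^ 7) = true := by decide +kernel

theorem tc3kw_rfile_13 : ∀ k, k < 280 → 260 ≤ k → allR tc3kw_rf 80234 7 (k * 2 ^ 7) = true := by
  intro k h1 h2
  interval_cases k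
  · exact tc3kw_rchk_260
  · exact tc3kw_rchk_261
  · exact tc3kw_rchk_262
  · exact tc3kw_rchk_263
  · exact tc3kw_rchk_264
  · exact tc3kw_rchk_265
  · exact tc3kw_rchk_266
  · exact tc3kw_rchk_267
  · exact tc3kw_rchk_268
  · exact tc3kw_rchk_269
  · exact tc3kw_rchk_270
  · exact tc3kw_rchk_271
  · exact tc3kw_rchk_272
  · exact tc3kw_rchk_273
  · exact tc3kw_rchk_274
  · exact tc3kw_rchk_275
  · exact tc3kw_rchk_276
  · exact tc3kw_rchk_277
  · exact tc3kw_rchk_278
  · exact tc3kw_rchk_279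

end Cfsg.Agent.H41.C3P
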