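import Cfsg.Agent.H41.C3TC.Kw.RTab

set_option autoImplicit false
set_option linter.all false
set_option Elab.async false

namespace Cfsg.Agent.H41.C3P

open Cfsg.Agent.H35

theorem tc3kw_rchk_280 : allR tc3kw_rf 80234 7 (280 * 2 ^ 7) = true := by decide +kernel
theorem tc3kw_rchk_281 : allR tc3kw_rf 80234 7 (281 * 2 ^ 7) = true := by decide +kernel
theorem tc3kw_rchk_282 : allR tc3kw_rf 80234 7 (282 * 2 ^ 7) = true := by decide +kernel
theorem tc3kw_rchk_283 : allR tc3kw_rf 80234 7 (283 * 2 ^ 7) = true := by decide +kernel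
theorem tc3kw_rchk_284 : allR tc3kw_rf 80234 7 (284 * 2 ^ 7) = true := by decide +kernel
theorem tc3kw_rchk_285 : allR tc3kw_rf 80234 7 (285 * 2 ^ 7) = true := by decide +kernel
theorem tc3kw_rchk_286 : allR tc3kw_rf 80234 7 (286 * 2 ^ 7) = true := by decide +kernel
theorem tc3kw_rchk_287 : allR tc3kw_rf 80234 7 (287 * 2 ^ 7) = true := by decide +kernel
theorem tc3kw_rchk_288 : allR tc3kw_rf 80234 7 (288 * 2 ^ 7) = true := by decide +kernel
theorem tc3kw_rchk_289 : allR tc3kw_rf 80234 7 (289 * 2 ^ 7) = true := by decide +kernel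
theorem tc3kw_rchk_290 : allR tc3kw_rf 80234 7 (290 * 2 ^ 7) = true := by decide +kernel
theorem tc3kw_rchk_291 : allR tc3kw_rf 80234 7 (291 * 2 ^ 7) = true := by decide +kernel
theorem tc3kw_rchk_292 : allR tc3kw_rf 80234 7 (292 * 2 ^ 7) = true := by decide +kernel
theorem tc3kw_rchk_293 : allR tc3kw_rf 80234 7 (293 * 2 ^ 7) = true := by decide +kernel
theorem tc3kw_rchk_294 : allR tc3kw_rf 80234 7 (294 * 2 ^ 7) = true := by decide +kernel
theorem tc3kw_rchk_295 : allR tc3kw_rf 80234 7 (295 * 2 ^ 7) = true := by decide +kernel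
theorem tc3kw_rchk_296 : allR tc3kw_rf 80234 7 (296 * 2 ^ 7) = true := by decide +kernel
theorem tc3kw_rchk_297 : allR tc3kw_rf 80234 7 (297 * 2 ^ 7) = true := by decide +kernel
theorem tc3kw_rchk_298 : allR tc3kw_rf 80234 7 (298 * 2 ^ 7) = true := by decide +kernel
theorem tc3kw_rchk_299 : allR tc3kw_rf 80234 7 (299 * 2 ^ 7) = true := by decide +kernel

theorem tc3kw_rfile_14 : ∀ k, k < 300 → 280 ≤ k → allR tc3kw_rf 80234 7 (k * 2 ^ 7) = true := by
  intro k h1 h2
  interval_cases k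
  · exact tc3kw_rchk_280
  · exact tc3kw_rchk_281
  · exact tc3kw_rchk_282
  · exact tc3kw_rchk_283
  · exact tc3kw_rchk_284
  · exact tc3kw_rchk_285
  · exact tc3kw_rchk_286
  · exact tc3kw_rchk_287
  · exact tc3kw_rchk_288
  · exact tc3kw_rchk_289
  · exact tc3kw_rchk_290
  · exact tc3kw_rchk_291
  · exact tc3kw_rchk_292
  · exact tc3kw_rchk_293
  · exact tc3kw_rchk_294
  · exact tc3kw_rchk_295
  · exact tc3kw_rchk_296
  · exact tc3kw_rchk_297
  · exact tc3kw_rchk_298
  · exact tc3kw_rchk_299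

end Cfsg.Agent.H41.C3P
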