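import Cfsg.Agent.H41.C3TC.Kw.RTab

set_option autoImplicit false
set_option linter.all false
set_option Elab.async false

namespace Cfsg.Agent.H41.C3P

open Cfsg.Agent.H35

theorem tc3kw_rchk_300 : allR tc3kw_rf 80234 7 (300 * 2 ^ 7) = true := by decide +kernel
theorem tc3kw_rchk_301 : allR tc3kw_rf 80234 7 (301 * 2 ^ 7) = true := by decide +kernel
theorem tc3kw_rchk_302 : allR tc3kw_rf 80234 7 (302 * 2 ^ 7) = true := by decide +kernel
theorem tc3kw_rchk_303 : allR tc3kw_rf 80234 7 (303 * 2 ^ 7) = true := by decide +kernel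
theorem tc3kw_rchk_304 : allR tc3kw_rf 80234 7 (304 * 2 ^ 7) = true := by decide +kernel
theorem tc3kw_rchk_305 : allR tc3kw_rf 80234 7 (305 * 2 ^ 7) = true := by decide +kernel
theorem tc3kw_rchk_306 : allR tc3kw_rf 80234 7 (306 * 2 ^ 7) = true := by decide +kernel
theorem tc3kw_rchk_307 : allR tc3kw_rf 80234 7 (307 * 2 ^ 7) = true := by decide +kernel
theorem tc3kw_rchk_308 : allR tc3kw_rf 80234 7 (308 * 2 ^ 7) = true := by decide +kernel
theorem tc3kw_rchk_309 : allR tc3kw_rf 80234 7 (309 * 2 ^ 7) = true := by decide +kernel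
theorem tc3kw_rchk_310 : allR tc3kw_rf 80234 7 (310 * 2 ^ 7) = true := by decide +kernel
theorem tc3kw_rchk_311 : allR tc3kw_rf 80234 7 (311 * 2 ^ 7) = true := by decide +kernel
theorem tc3kw_rchk_312 : allR tc3kw_rf 80234 7 (312 * 2 ^ 7) = true := by decide +kernel
theorem tc3kw_rchk_313 : allR tc3kw_rf 80234 7 (313 * 2 ^ 7) = true := by decide +kernel
theorem tc3kw_rchk_314 : allR tc3kw_rf 80234 7 (314 * 2 ^ 7) = true := by decide +kernel
theorem tc3kw_rchk_315 : allR tc3kw_rf 80234 7 (315 * 2 ^ 7) = true := by decide +kernel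
theorem tc3kw_rchk_316 : allR tc3kw_rf 80234 7 (316 * 2 ^ 7) = true := by decide +kernel
theorem tc3kw_rchk_317 : allR tc3kw_rf 80234 7 (317 * 2 ^ 7) = true := by decide +kernel
theorem tc3kw_rchk_318 : allR tc3kw_rf 80234 7 (318 * 2 ^ 7) = true := by decide +kernel
theorem tc3kw_rchk_319 : allR tc3kw_rf 80234 7 (319 * 2 ^ 7) = true := by decide +kernel

theorem tc3kw_rfile_15 : ∀ k, k < 320 → 300 ≤ k → allR tc3kw_rf 80234 7 (k * 2 ^ 7) = true := by
  intro k h1 h2
  interval_cases k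
  · exact tc3kw_rchk_300
  · exact tc3kw_rchk_301
  · exact tc3kw_rchk_302
  · exact tc3kw_rchk_303
  · exact tc3kw_rchk_304
  · exact tc3kw_rchk_305
  · exact tc3kw_rchk_306
  · exact tc3kw_rchk_307
  · exact tc3kw_rchk_308
  · exact tc3kw_rchk_309
  · exact tc3kw_rchk_310
  · exact tc3kw_rchk_311
  · exact tc3kw_rchk_312
  · exact tc3kw_rchk_313
  · exact tc3kw_rchk_314
  · exact tc3kw_rchk_315
  · exact tc3kw_rchk_316
  · exact tc3kw_rchk_317
  · exact tc3kw_rchk_318
  · exact tc3kw_rchk_319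

end Cfsg.Agent.H41.C3P
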