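import Cfsg.Agent.H41.C3TC.Kw.RTab

set_option autoImplicit false
set_option linter.all false
set_option Elab.async false

namespace Cfsg.Agent.H41.C3P

open Cfsg.Agent.H35

theorem tc3kw_rchk_320 : allR tc3kw_rf 80234 7 (320 * 2 ^ 7) = true := by decide +kernel
theorem tc3kw_rchk_321 : allR tc3kw_rf 80234 7 (321 * 2 ^ 7) = true := by decide +kernel
theorem tc3kw_rchk_322 : allR tc3kw_rf 80234 7 (322 * 2 ^ 7) = true := by decide +kernel
theorem tc3kw_rchk_323 : allR tc3kw_rf 80234 7 (323 * 2 ^ 7) = true := by decide +kernel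
theorem tc3kw_rchk_324 : allR tc3kw_rf 80234 7 (324 * 2 ^ 7) = true := by decide +kernel
theorem tc3kw_rchk_325 : allR tc3kw_rf 80234 7 (325 * 2 ^ 7) = true := by decide +kernel
theorem tc3kw_rchk_326 : allR tc3kw_rf 80234 7 (326 * 2 ^ 7) = true := by decide +kernel
theorem tc3kw_rchk_327 : allR tc3kw_rf 80234 7 (327 * 2 ^ 7) = true := by decide +kernel
theorem tc3kw_rchk_328 : allR tc3kw_rf 80234 7 (328 * 2 ^ 7) = true := by decide +kernel
theorem tc3kw_rchk_329 : allR tc3kw_rf 80234 7 (329 * 2 ^ 7) = true := by decide +kernel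
theorem tc3kw_rchk_330 : allR tc3kw_rf 80234 7 (330 * 2 ^ 7) = true := by decide +kernel
theorem tc3kw_rchk_331 : allR tc3kw_rf 80234 7 (331 * 2 ^ 7) = true := by decide +kernel
theorem tc3kw_rchk_332 : allR tc3kw_rf 80234 7 (332 * 2 ^ 7) = true := by decide +kernel
theorem tc3kw_rchk_333 : allR tc3kw_rf 80234 7 (333 * 2 ^ 7) = true := by decide +kernel
theorem tc3kw_rchk_334 : allR tc3kw_rf 80234 7 (334 * 2 ^ 7) = true := by decide +kernel
theorem tc3kw_rchk_335 : allR tc3kw_rf 80234 7 (335 * 2 ^ 7) = true := by decide +kernel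
theorem tc3kw_rchk_336 : allR tc3kw_rf 80234 7 (336 * 2 ^ 7) = true := by decide +kernel
theorem tc3kw_rchk_337 : allR tc3kw_rf 80234 7 (337 * 2 ^ 7) = true := by decide +kernel
theorem tc3kw_rchk_338 : allR tc3kw_rf 80234 7 (338 * 2 ^ 7) = true := by decide +kernel
theorem tc3kw_rchk_339 : allR tc3kw_rf 80234 7 (339 * 2 ^ 7) = true := by decide +kernel

theorem tc3kw_rfile_16 : ∀ k, k < 340 → 320 ≤ k → allR tc3kw_rf 80234 7 (k * 2 ^ 7) = true := by
  intro k h1 h2
  interval_cases k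
  · exact tc3kw_rchk_320
  · exact tc3kw_rchk_321
  · exact tc3kw_rchk_322
  · exact tc3kw_rchk_323
  · exact tc3kw_rchk_324
  · exact tc3kw_rchk_325
  · exact tc3kw_rchk_326
  · exact tc3kw_rchk_327
  · exact tc3kw_rchk_328
  · exact tc3kw_rchk_329
  · exact tc3kw_rchk_330
  · exact tc3kw_rchk_331
  · exact tc3kw_rchk_332
  · exact tc3kw_rchk_333
  · exact tc3kw_rchk_334
  · exact tc3kw_rchk_335
  · exact tc3kw_rchk_336
  · exact tc3kw_rchk_337
  · exact tc3kw_rchk_338
  · exact tc3kw_rchk_339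

end Cfsg.Agent.H41.C3P
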