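import Cfsg.Agent.H41.C3TC.Kw.RTab

set_option autoImplicit false
set_option linter.all false
set_option Elab.async false

namespace Cfsg.Agent.H41.C3P

open Cfsg.Agent.H35

theorem tc3kw_rchk_340 : allR tc3kw_rf 80234 7 (340 * 2 ^ 7) = true := by decide +kernel
theorem tc3kw_rchk_341 : allR tc3kw_rf 80234 7 (341 * 2 ^ 7) = true := by decide +kernel
theorem tc3kw_rchk_342 : allR tc3kw_rf 80234 7 (342 * 2 ^ 7) = true := by decide +kernel
theorem tc3kw_rchk_343 : allR tc3kw_rf 80234 7 (343 * 2 ^ 7) = true := by decide +kernel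
theorem tc3kw_rchk_344 : allR tc3kw_rf 80234 7 (344 * 2 ^ 7) = true := by decide +kernel
theorem tc3kw_rchk_345 : allR tc3kw_rf 80234 7 (345 * 2 ^ 7) = true := by decide +kernel
theorem tc3kw_rchk_346 : allR tc3kw_rf 80234 7 (346 * 2 ^ 7) = true := by decide +kernel
theorem tc3kw_rchk_347 : allR tc3kw_rf 80234 7 (347 * 2 ^ 7) = true := by decide +kernel
theorem tc3kw_rchk_348 : allR tc3kw_rf 80234 7 (348 * 2 ^ 7) = true := by decide +kernel
theorem tc3kw_rchk_349 : allR tc3kw_rf 80234 7 (349 * 2 ^ 7) = true := by decide +kernel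
theorem tc3kw_rchk_350 : allR tc3kw_rf 80234 7 (350 * 2 ^ 7) = true := by decide +kernel
theorem tc3kw_rchk_351 : allR tc3kw_rf 80234 7 (351 * 2 ^ 7) = true := by decide +kernel
theorem tc3kw_rchk_352 : allR tc3kw_rf 80234 7 (352 * 2 ^ 7) = true := by decide +kernel
theorem tc3kw_rchk_353 : allR tc3kw_rf 80234 7 (353 * 2 ^ 7) = true := by decide +kernel
theorem tc3kw_rchk_354 : allR tc3kw_rf 80234 7 (354 * 2 ^ 7) = true := by decide +kernel
theorem tc3kw_rchk_355 : allR tc3kw_rf 80234 7 (355 * 2 ^ 7) = true := by decide +kernel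
theorem tc3kw_rchk_356 : allR tc3kw_rf 80234 7 (356 * 2 ^ 7) = true := by decide +kernel
theorem tc3kw_rchk_357 : allR tc3kw_rf 80234 7 (357 * 2 ^ 7) = true := by decide +kernel
theorem tc3kw_rchk_358 : allR tc3kw_rf 80234 7 (358 * 2 ^ 7) = true := by decide +kernel
theorem tc3kw_rchk_359 : allR tc3kw_rf 80234 7 (359 * 2 ^ 7) = true := by decide +kernel

theorem tc3kw_rfile_17 : ∀ k, k < 360 → 340 ≤ k → allR tc3kw_rf 80234 7 (k * 2 ^ 7) = true := by
  intro k h1 h2
  interval_cases k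
  · exact tc3kw_rchk_340
  · exact tc3kw_rchk_341
  · exact tc3kw_rchk_342
  · exact tc3kw_rchk_343
  · exact tc3kw_rchk_344
  · exact tc3kw_rchk_345
  · exact tc3kw_rchk_346
  · exact tc3kw_rchk_347
  · exact tc3kw_rchk_348
  · exact tc3kw_rchk_349
  · exact tc3kw_rchk_350
  · exact tc3kw_rchk_351
  · exact tc3kw_rchk_352
  · exact tc3kw_rchk_353
  · exact tc3kw_rchk_354
  · exact tc3kw_rchk_355
  · exact tc3kw_rchk_356
  · exact tc3kw_rchk_357
  · exact tc3kw_rchk_358
  · exact tc3kw_rchk_359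

end Cfsg.Agent.H41.C3P
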