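import Cfsg.Agent.H41.C3TC.Kw.RTab

set_option autoImplicit false
set_option linter.all false
set_option Elab.async false

namespace Cfsg.Agent.H41.C3P

open Cfsg.Agent.H35

theorem tc3kw_rchk_360 : allR tc3kw_rf 80234 7 (360 * 2 ^ 7) = true := by decide +kernel
theorem tc3kw_rchk_361 : allR tc3kw_rf 80234 7 (361 * 2 ^ 7) = true := by decide +kernel
theorem tc3kw_rchk_362 : allR tc3kw_rf 80234 7 (362 * 2 ^ 7) = true := by decide +kernel
theorem tc3kw_rchk_363 : allR tc3kw_rf 80234 7 (363 * 2 ^ 7) = true := by decide +kernel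
theorem tc3kw_rchk_364 : allR tc3kw_rf 80234 7 (364 * 2 ^ 7) = true := by decide +kernel
theorem tc3kw_rchk_365 : allR tc3kw_rf 80234 7 (365 * 2 ^ 7) = true := by decide +kernel
theorem tc3kw_rchk_366 : allR tc3kw_rf 80234 7 (366 * 2 ^ 7) = true := by decide +kernel
theorem tc3kw_rchk_367 : allR tc3kw_rf 80234 7 (367 * 2 ^ 7) = true := by decide +kernel
theorem tc3kw_rchk_368 : allR tc3kw_rf 80234 7 (368 * 2 ^ 7) = true := by decide +kernel
theorem tc3kw_rchk_369 : allR tc3kw_rf 80234 7 (369 * 2 ^ 7) = true := by decide +kernel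
theorem tc3kw_rchk_370 : allR tc3kw_rf 80234 7 (370 * 2 ^ 7) = true := by decide +kernel
theorem tc3kw_rchk_371 : allR tc3kw_rf 80234 7 (371 * 2 ^ 7) = true := by decide +kernel
theorem tc3kw_rchk_372 : allR tc3kw_rf 80234 7 (372 * 2 ^ 7) = true := by decide +kernel
theorem tc3kw_rchk_373 : allR tc3kw_rf 80234 7 (373 * 2 ^ 7) = true := by decide +kernel
theorem tc3kw_rchk_374 : allR tc3kw_rf 80234 7 (374 * 2 ^ 7) = true := by decide +kernel
theorem tc3kw_rchk_375 : allR tc3kw_rf 80234 7 (375 * 2 ^ 7) = true := by decide +kernel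
theorem tc3kw_rchk_376 : allR tc3kw_rf 80234 7 (376 * 2 ^ 7) = true := by decide +kernel
theorem tc3kw_rchk_377 : allR tc3kw_rf 80234 7 (377 * 2 ^ 7) = true := by decide +kernel
theorem tc3kw_rchk_378 : allR tc3kw_rf 80234 7 (378 * 2 ^ 7) = true := by decide +kernel
theorem tc3kw_rchk_379 : allR tc3kw_rf 80234 7 (379 * 2 ^ 7) = true := by decide +kernel

theorem tc3kw_rfile_18 : ∀ k, k < 380 → 360 ≤ k → allR tc3kw_rf 80234 7 (k * 2 ^ 7) = true := by
  intro k h1 h2
  interval_cases k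
  · exact tc3kw_rchk_360
  · exact tc3kw_rchk_361
  · exact tc3kw_rchk_362
  · exact tc3kw_rchk_363
  · exact tc3kw_rchk_364
  · exact tc3kw_rchk_365
  · exact tc3kw_rchk_366
  · exact tc3kw_rchk_367
  · exact tc3kw_rchk_368
  · exact tc3kw_rchk_369
  · exact tc3kw_rchk_370
  · exact tc3kw_rchk_371
  · exact tc3kw_rchk_372
  · exact tc3kw_rchk_373
  · exact tc3kw_rchk_374
  · exact tc3kw_rchk_375
  · exact tc3kw_rchk_376
  · exact tc3kw_rchk_377
  · exact tc3kw_rchk_378
  · exact tc3kw_rchk_379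

end Cfsg.Agent.H41.C3P
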