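import Cfsg.Agent.H41.C3TC.Kw.RTab

set_option autoImplicit false
set_option linter.all false
set_option Elab.async false

namespace Cfsg.Agent.H41.C3P

open Cfsg.Agent.H35

theorem tc3kw_rchk_380 : allR tc3kw_rf 80234 7 (380 * 2 ^ 7) = true := by decide +kernel
theorem tc3kw_rchk_381 : allR tc3kw_rf 80234 7 (381 * 2 ^ 7) = true := by decide +kernel
theorem tc3kw_rchk_382 : allR tc3kw_rf 80234 7 (382 * 2 ^ 7) = true := by decide +kernel
theorem tc3kw_rchk_383 : allR tc3kw_rf 80234 7 (383 * 2 ^ 7) = true := by decide +kernel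
theorem tc3kw_rchk_384 : allR tc3kw_rf 80234 7 (384 * 2 ^ 7) = true := by decide +kernel
theorem tc3kw_rchk_385 : allR tc3kw_rf 80234 7 (385 * 2 ^ 7) = true := by decide +kernel
theorem tc3kw_rchk_386 : allR tc3kw_rf 80234 7 (386 * 2 ^ 7) = true := by decide +kernel
theorem tc3kw_rchk_387 : allR tc3kw_rf 80234 7 (387 * 2 ^ 7) = true := by decide +kernel
theorem tc3kw_rchk_388 : allR tc3kw_rf 80234 7 (388 * 2 ^ 7) = true := by decide +kernel
theorem tc3kw_rchk_389 : allR tc3kw_rf 80234 7 (389 * 2 ^ 7) = true := by decide +kernel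
theorem tc3kw_rchk_390 : allR tc3kw_rf 80234 7 (390 * 2 ^ 7) = true := by decide +kernel
theorem tc3kw_rchk_391 : allR tc3kw_rf 80234 7 (391 * 2 ^ 7) = true := by decide +kernel
theorem tc3kw_rchk_392 : allR tc3kw_rf 80234 7 (392 * 2 ^ 7) = true := by decide +kernel
theorem tc3kw_rchk_393 : allR tc3kw_rf 80234 7 (393 * 2 ^ 7) = true := by decide +kernel
theorem tc3kw_rchk_394 : allR tc3kw_rf 80234 7 (394 * 2 ^ 7) = true := by decide +kernel
theorem tc3kw_rchk_395 : allR tc3kw_rf 80234 7 (395 * 2 ^ 7) = true := by decide +kernel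
theorem tc3kw_rchk_396 : allR tc3kw_rf 80234 7 (396 * 2 ^ 7) = true := by decide +kernel
theorem tc3kw_rchk_397 : allR tc3kw_rf 80234 7 (397 * 2 ^ 7) = true := by decide +kernel
theorem tc3kw_rchk_398 : allR tc3kw_rf 80234 7 (398 * 2 ^ 7) = true := by decide +kernel
theorem tc3kw_rchk_399 : allR tc3kw_rf 80234 7 (399 * 2 ^ 7) = true := by decide +kernel

theorem tc3kw_rfile_19 : ∀ k, k < 400 → 380 ≤ k → allR tc3kw_rf 80234 7 (k * 2 ^ 7) = true := by
  intro k h1 h2
  interval_cases k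
  · exact tc3kw_rchk_380
  · exact tc3kw_rchk_381
  · exact tc3kw_rchk_382
  · exact tc3kw_rchk_383
  · exact tc3kw_rchk_384
  · exact tc3kw_rchk_385
  · exact tc3kw_rchk_386
  · exact tc3kw_rchk_387
  · exact tc3kw_rchk_388
  · exact tc3kw_rchk_389
  · exact tc3kw_rchk_390
  · exact tc3kw_rchk_391
  · exact tc3kw_rchk_392
  · exact tc3kw_rchk_393
  · exact tc3kw_rchk_394
  · exact tc3kw_rchk_395
  · exact tc3kw_rchk_396
  · exact tc3kw_rchk_397
  · exact tc3kw_rchk_398
  · exact tc3kw_rchk_399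

end Cfsg.Agent.H41.C3P
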