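import Cfsg.Agent.H41.C3TC.Kw.RTab

set_option autoImplicit false
set_option linter.all false
set_option Elab.async false

namespace Cfsg.Agent.H41.C3P

open Cfsg.Agent.H35

theorem tc3kw_rchk_40 : allR tc3kw_rf 80234 7 (40 * 2 ^ 7) = true := by decide +kernel
theorem tc3kw_rchk_41 : allR tc3kw_rf 80234 7 (41 * 2 ^ 7) = true := by decide +kernel
theorem tc3kw_rchk_42 : allR tc3kw_rf 80234 7 (42 * 2 ^ 7) = true := by decide +kernel
theorem tc3kw_rchk_43 : allR tc3kw_rf 80234 7 (43 * 2 ^ 7) = true := by decide +kernel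
theorem tc3kw_rchk_44 : allR tc3kw_rf 80234 7 (44 * 2 ^ 7) = true := by decide +kernel
theorem tc3kw_rchk_45 : allR tc3kw_rf 80234 7 (45 * 2 ^ 7) = true := by decide +kernel
theorem tc3kw_rchk_46 : allR tc3kw_rf 80234 7 (46 * 2 ^ 7) = true := by decide +kernel
theorem tc3kw_rchk_47 : allR tc3kw_rf 80234 7 (47 * 2 ^ 7) = true := by decide +kernel
theorem tc3kw_rchk_48 : allR tc3kw_rf 80234 7 (48 * 2 ^ 7) = true := by decide +kernel
theorem tc3kw_rchk_49 : allR tc3kw_rf 80234 7 (49 * 2 ^ 7) = true := by decide +kernel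
theorem tc3kw_rchk_50 : allR tc3kw_rf 80234 7 (50 * 2 ^ 7) = true := by decide +kernel
theorem tc3kw_rchk_51 : allR tc3kw_rf 80234 7 (51 * 2 ^ 7) = true := by decide +kernel
theorem tc3kw_rchk_52 : allR tc3kw_rf 80234 7 (52 * 2 ^ 7) = true := by decide +kernel
theorem tc3kw_rchk_53 : allR tc3kw_rf 80234 7 (53 * 2 ^ 7) = true := by decide +kernel
theorem tc3kw_rchk_54 : allR tc3kw_rf 80234 7 (54 * 2 ^ 7) = true := by decide +kernel
theorem tc3kw_rchk_55 : allR tc3kw_rf 80234 7 (55 * 2 ^ 7) = true := by decide +kernel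
theorem tc3kw_rchk_56 : allR tc3kw_rf 80234 7 (56 * 2 ^ 7) = true := by decide +kernel
theorem tc3kw_rchk_57 : allR tc3kw_rf 80234 7 (57 * 2 ^ 7) = true := by decide +kernel
theorem tc3kw_rchk_58 : allR tc3kw_rf 80234 7 (58 * 2 ^ 7) = true := by decide +kernel
theorem tc3kw_rchk_59 : allR tc3kw_rf 80234 7 (59 * 2 ^ 7) = true := by decide +kernel

theorem tc3kw_rfile_2 : ∀ k, k < 60 → 40 ≤ k → allR tc3kw_rf 80234 7 (k * 2 ^ 7) = true := by
  intro k h1 h2
  interval_cases k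
  · exact tc3kw_rchk_40
  · exact tc3kw_rchk_41
  · exact tc3kw_rchk_42
  · exact tc3kw_rchk_43
  · exact tc3kw_rchk_44
  · exact tc3kw_rchk_45
  · exact tc3kw_rchk_46
  · exact tc3kw_rchk_47
  · exact tc3kw_rchk_48
  · exact tc3kw_rchk_49
  · exact tc3kw_rchk_50
  · exact tc3kw_rchk_51
  · exact tc3kw_rchk_52
  · exact tc3kw_rchk_53
  · exact tc3kw_rchk_54
  · exact tc3kw_rchk_55
  · exact tc3kw_rchk_56
  · exact tc3kw_rchk_57
  · exact tc3kw_rchk_58
  · exact tc3kw_rchk_59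

end Cfsg.Agent.H41.C3P
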