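import Cfsg.Agent.H41.C3TC.Kw.RTab

set_option autoImplicit false
set_option linter.all false
set_option Elab.async false

namespace Cfsg.Agent.H41.C3P

open Cfsg.Agent.H35

theorem tc3kw_rchk_400 : allR tc3kw_rf 80234 7 (400 * 2 ^ 7) = true := by decide +kernel
theorem tc3kw_rchk_401 : allR tc3kw_rf 80234 7 (401 * 2 ^ 7) = true := by decide +kernel
theorem tc3kw_rchk_402 : allR tc3kw_rf 80234 7 (402 * 2 ^ 7) = true := by decide +kernel
theorem tc3kw_rchk_403 : allR tc3kw_rf 80234 7 (403 * 2 ^ 7) = true := by decide +kernel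
theorem tc3kw_rchk_404 : allR tc3kw_rf 80234 7 (404 * 2 ^ 7) = true := by decide +kernel
theorem tc3kw_rchk_405 : allR tc3kw_rf 80234 7 (405 * 2 ^ 7) = true := by decide +kernel
theorem tc3kw_rchk_406 : allR tc3kw_rf 80234 7 (406 * 2 ^ 7) = true := by decide +kernel
theorem tc3kw_rchk_407 : allR tc3kw_rf 80234 7 (407 * 2 ^ 7) = true := by decide +kernel
theorem tc3kw_rchk_408 : allR tc3kw_rf 80234 7 (408 * 2 ^ 7) = true := by decide +kernel
theorem tc3kw_rchk_409 : allR tc3kw_rf 80234 7 (409 * 2 ^ 7) = true := by decide +kernel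
theorem tc3kw_rchk_410 : allR tc3kw_rf 80234 7 (410 * 2 ^ 7) = true := by decide +kernel
theorem tc3kw_rchk_411 : allR tc3kw_rf 80234 7 (411 * 2 ^ 7) = true := by decide +kernel
theorem tc3kw_rchk_412 : allR tc3kw_rf 80234 7 (412 * 2 ^ 7) = true := by decide +kernel
theorem tc3kw_rchk_413 : allR tc3kw_rf 80234 7 (413 * 2 ^ 7) = true := by decide +kernel
theorem tc3kw_rchk_414 : allR tc3kw_rf 80234 7 (414 * 2 ^ 7) = true := by decide +kernel
theorem tc3kw_rchk_415 : allR tc3kw_rf 80234 7 (415 * 2 ^ 7) = true := by decide +kernel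
theorem tc3kw_rchk_416 : allR tc3kw_rf 80234 7 (416 * 2 ^ 7) = true := by decide +kernel
theorem tc3kw_rchk_417 : allR tc3kw_rf 80234 7 (417 * 2 ^ 7) = true := by decide +kernel
theorem tc3kw_rchk_418 : allR tc3kw_rf 80234 7 (418 * 2 ^ 7) = true := by decide +kernel
theorem tc3kw_rchk_419 : allR tc3kw_rf 80234 7 (419 * 2 ^ 7) = true := by decide +kernel

theorem tc3kw_rfile_20 : ∀ k, k < 420 → 400 ≤ k → allR tc3kw_rf 80234 7 (k * 2 ^ 7) = true := by
  intro k h1 h2
  interval_cases k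
  · exact tc3kw_rchk_400
  · exact tc3kw_rchk_401
  · exact tc3kw_rchk_402
  · exact tc3kw_rchk_403
  · exact tc3kw_rchk_404
  · exact tc3kw_rchk_405
  · exact tc3kw_rchk_406
  · exact tc3kw_rchk_407
  · exact tc3kw_rchk_408
  · exact tc3kw_rchk_409
  · exact tc3kw_rchk_410
  · exact tc3kw_rchk_411
  · exact tc3kw_rchk_412
  · exact tc3kw_rchk_413
  · exact tc3kw_rchk_414
  · exact tc3kw_rchk_415
  · exact tc3kw_rchk_416
  · exact tc3kw_rchk_417
  · exact tc3kw_rchk_418
  · exact tc3kw_rchk_419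

end Cfsg.Agent.H41.C3P
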