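import Cfsg.Agent.H41.C3TC.Kw.RTab

set_option autoImplicit false
set_option linter.all false
set_option Elab.async false

namespace Cfsg.Agent.H41.C3P

open Cfsg.Agent.H35

theorem tc3kw_rchk_420 : allR tc3kw_rf 80234 7 (420 * 2 ^ 7) = true := by decide +kernel
theorem tc3kw_rchk_421 : allR tc3kw_rf 80234 7 (421 * 2 ^ 7) = true := by decide +kernel
theorem tc3kw_rchk_422 : allR tc3kw_rf 80234 7 (422 * 2 ^ 7) = true := by decide +kernel
theorem tc3kw_rchk_423 : allR tc3kw_rf 80234 7 (423 * 2 ^ 7) = true := by decide +kernel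
theorem tc3kw_rchk_424 : allR tc3kw_rf 80234 7 (424 * 2 ^ 7) = true := by decide +kernel
theorem tc3kw_rchk_425 : allR tc3kw_rf 80234 7 (425 * 2 ^ 7) = true := by decide +kernel
theorem tc3kw_rchk_426 : allR tc3kw_rf 80234 7 (426 * 2 ^ 7) = true := by decide +kernel
theorem tc3kw_rchk_427 : allR tc3kw_rf 80234 7 (427 * 2 ^ 7) = true := by decide +kernel
theorem tc3kw_rchk_428 : allR tc3kw_rf 80234 7 (428 * 2 ^ 7) = true := by decide +kernel
theorem tc3kw_rchk_429 : allR tc3kw_rf 80234 7 (429 * 2 ^ 7) = true := by decide +kernel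
theorem tc3kw_rchk_430 : allR tc3kw_rf 80234 7 (430 * 2 ^ 7) = true := by decide +kernel
theorem tc3kw_rchk_431 : allR tc3kw_rf 80234 7 (431 * 2 ^ 7) = true := by decide +kernel
theorem tc3kw_rchk_432 : allR tc3kw_rf 80234 7 (432 * 2 ^ 7) = true := by decide +kernel
theorem tc3kw_rchk_433 : allR tc3kw_rf 80234 7 (433 * 2 ^ 7) = true := by decide +kernel
theorem tc3kw_rchk_434 : allR tc3kw_rf 80234 7 (434 * 2 ^ 7) = true := by decide +kernel
theorem tc3kw_rchk_435 : allR tc3kw_rf 80234 7 (435 * 2 ^ 7) = true := by decide +kernel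
theorem tc3kw_rchk_436 : allR tc3kw_rf 80234 7 (436 * 2 ^ 7) = true := by decide +kernel
theorem tc3kw_rchk_437 : allR tc3kw_rf 80234 7 (437 * 2 ^ 7) = true := by decide +kernel
theorem tc3kw_rchk_438 : allR tc3kw_rf 80234 7 (438 * 2 ^ 7) = true := by decide +kernel
theorem tc3kw_rchk_439 : allR tc3kw_rf 80234 7 (439 * 2 ^ 7) = true := by decide +kernel

theorem tc3kw_rfile_21 : ∀ k, k < 440 → 420 ≤ k → allR tc3kw_rf 80234 7 (k * 2 ^ 7) = true := by
  intro k h1 h2
  interval_cases k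
  · exact tc3kw_rchk_420
  · exact tc3kw_rchk_421
  · exact tc3kw_rchk_422
  · exact tc3kw_rchk_423
  · exact tc3kw_rchk_424
  · exact tc3kw_rchk_425
  · exact tc3kw_rchk_426
  · exact tc3kw_rchk_427
  · exact tc3kw_rchk_428
  · exact tc3kw_rchk_429
  · exact tc3kw_rchk_430
  · exact tc3kw_rchk_431
  · exact tc3kw_rchk_432
  · exact tc3kw_rchk_433
  · exact tc3kw_rchk_434
  · exact tc3kw_rchk_435
  · exact tc3kw_rchk_436
  · exact tc3kw_rchk_437
  · exact tc3kw_rchk_438
  · exact tc3kw_rchk_439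

end Cfsg.Agent.H41.C3P
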