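import Cfsg.Agent.H41.C3TC.Kw.RTab

set_option autoImplicit false
set_option linter.all false
set_option Elab.async false

namespace Cfsg.Agent.H41.C3P

open Cfsg.Agent.H35

theorem tc3kw_rchk_440 : allR tc3kw_rf 80234 7 (440 * 2 ^ 7) = true := by decide +kernel
theorem tc3kw_rchk_441 : allR tc3kw_rf 80234 7 (441 * 2 ^ 7) = true := by decide +kernel
theorem tc3kw_rchk_442 : allR tc3kw_rf 80234 7 (442 * 2 ^ 7) = true := by decide +kernel
theorem tc3kw_rchk_443 : allR tc3kw_rf 80234 7 (443 * 2 ^ 7) = true := by decide +kernel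
theorem tc3kw_rchk_444 : allR tc3kw_rf 80234 7 (444 * 2 ^ 7) = true := by decide +kernel
theorem tc3kw_rchk_445 : allR tc3kw_rf 80234 7 (445 * 2 ^ 7) = true := by decide +kernel
theorem tc3kw_rchk_446 : allR tc3kw_rf 80234 7 (446 * 2 ^ 7) = true := by decide +kernel
theorem tc3kw_rchk_447 : allR tc3kw_rf 80234 7 (447 * 2 ^ 7) = true := by decide +kernel
theorem tc3kw_rchk_448 : allR tc3kw_rf 80234 7 (448 * 2 ^ 7) = true := by decide +kernel
theorem tc3kw_rchk_449 : allR tc3kw_rf 80234 7 (449 * 2 ^ 7) = true := by decide +kernel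
theorem tc3kw_rchk_450 : allR tc3kw_rf 80234 7 (450 * 2 ^ 7) = true := by decide +kernel
theorem tc3kw_rchk_451 : allR tc3kw_rf 80234 7 (451 * 2 ^ 7) = true := by decide +kernel
theorem tc3kw_rchk_452 : allR tc3kw_rf 80234 7 (452 * 2 ^ 7) = true := by decide +kernel
theorem tc3kw_rchk_453 : allR tc3kw_rf 80234 7 (453 * 2 ^ 7) = true := by decide +kernel
theorem tc3kw_rchk_454 : allR tc3kw_rf 80234 7 (454 * 2 ^ 7) = true := by decide +kernel
theorem tc3kw_rchk_455 : allR tc3kw_rf 80234 7 (455 * 2 ^ 7) = true := by decide +kernel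
theorem tc3kw_rchk_456 : allR tc3kw_rf 80234 7 (456 * 2 ^ 7) = true := by decide +kernel
theorem tc3kw_rchk_457 : allR tc3kw_rf 80234 7 (457 * 2 ^ 7) = true := by decide +kernel
theorem tc3kw_rchk_458 : allR tc3kw_rf 80234 7 (458 * 2 ^ 7) = true := by decide +kernel
theorem tc3kw_rchk_459 : allR tc3kw_rf 80234 7 (459 * 2 ^ 7) = true := by decide +kernel

theorem tc3kw_rfile_22 : ∀ k, k < 460 → 440 ≤ k → allR tc3kw_rf 80234 7 (k * 2 ^ 7) = true := by
  intro k h1 h2
  interval_cases k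
  · exact tc3kw_rchk_440
  · exact tc3kw_rchk_441
  · exact tc3kw_rchk_442
  · exact tc3kw_rchk_443
  · exact tc3kw_rchk_444
  · exact tc3kw_rchk_445
  · exact tc3kw_rchk_446
  · exact tc3kw_rchk_447
  · exact tc3kw_rchk_448
  · exact tc3kw_rchk_449
  · exact tc3kw_rchk_450
  · exact tc3kw_rchk_451
  · exact tc3kw_rchk_452
  · exact tc3kw_rchk_453
  · exact tc3kw_rchk_454
  · exact tc3kw_rchk_455
  · exact tc3kw_rchk_456
  · exact tc3kw_rchk_457
  · exact tc3kw_rchk_458
  · exact tc3kw_rchk_459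

end Cfsg.Agent.H41.C3P
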