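import Cfsg.Agent.H41.C3TC.Kw.RTab

set_option autoImplicit false
set_option linter.all false
set_option Elab.async false

namespace Cfsg.Agent.H41.C3P

open Cfsg.Agent.H35

theorem tc3kw_rchk_460 : allR tc3kw_rf 80234 7 (460 * 2 ^ 7) = true := by decide +kernel
theorem tc3kw_rchk_461 : allR tc3kw_rf 80234 7 (461 * 2 ^ 7) = true := by decide +kernel
theorem tc3kw_rchk_462 : allR tc3kw_rf 80234 7 (462 * 2 ^ 7) = true := by decide +kernel
theorem tc3kw_rchk_463 : allR tc3kw_rf 80234 7 (463 * 2 ^ 7) = true := by decide +kernel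
theorem tc3kw_rchk_464 : allR tc3kw_rf 80234 7 (464 * 2 ^ 7) = true := by decide +kernel
theorem tc3kw_rchk_465 : allR tc3kw_rf 80234 7 (465 * 2 ^ 7) = true := by decide +kernel
theorem tc3kw_rchk_466 : allR tc3kw_rf 80234 7 (466 * 2 ^ 7) = true := by decide +kernel
theorem tc3kw_rchk_467 : allR tc3kw_rf 80234 7 (467 * 2 ^ 7) = true := by decide +kernel
theorem tc3kw_rchk_468 : allR tc3kw_rf 80234 7 (468 * 2 ^ 7) = true := by decide +kernel
theorem tc3kw_rchk_469 : allR tc3kw_rf 80234 7 (469 * 2 ^ 7) = true := by decide +kernel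
theorem tc3kw_rchk_470 : allR tc3kw_rf 80234 7 (470 * 2 ^ 7) = true := by decide +kernel
theorem tc3kw_rchk_471 : allR tc3kw_rf 80234 7 (471 * 2 ^ 7) = true := by decide +kernel
theorem tc3kw_rchk_472 : allR tc3kw_rf 80234 7 (472 * 2 ^ 7) = true := by decide +kernel
theorem tc3kw_rchk_473 : allR tc3kw_rf 80234 7 (473 * 2 ^ 7) = true := by decide +kernel
theorem tc3kw_rchk_474 : allR tc3kw_rf 80234 7 (474 * 2 ^ 7) = true := by decide +kernel
theorem tc3kw_rchk_475 : allR tc3kw_rf 80234 7 (475 * 2 ^ 7) = true := by decide +kernel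
theorem tc3kw_rchk_476 : allR tc3kw_rf 80234 7 (476 * 2 ^ 7) = true := by decide +kernel
theorem tc3kw_rchk_477 : allR tc3kw_rf 80234 7 (477 * 2 ^ 7) = true := by decide +kernel
theorem tc3kw_rchk_478 : allR tc3kw_rf 80234 7 (478 * 2 ^ 7) = true := by decide +kernel
theorem tc3kw_rchk_479 : allR tc3kw_rf 80234 7 (479 * 2 ^ 7) = true := by decide +kernel

theorem tc3kw_rfile_23 : ∀ k, k < 480 → 460 ≤ k → allR tc3kw_rf 80234 7 (k * 2 ^ 7) = true := by
  intro k h1 h2
  interval_cases k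
  · exact tc3kw_rchk_460
  · exact tc3kw_rchk_461
  · exact tc3kw_rchk_462
  · exact tc3kw_rchk_463
  · exact tc3kw_rchk_464
  · exact tc3kw_rchk_465
  · exact tc3kw_rchk_466
  · exact tc3kw_rchk_467
  · exact tc3kw_rchk_468
  · exact tc3kw_rchk_469
  · exact tc3kw_rchk_470
  · exact tc3kw_rchk_471
  · exact tc3kw_rchk_472
  · exact tc3kw_rchk_473
  · exact tc3kw_rchk_474
  · exact tc3kw_rchk_475
  · exact tc3kw_rchk_476
  · exact tc3kw_rchk_477
  · exact tc3kw_rchk_478
  · exact tc3kw_rchk_479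

end Cfsg.Agent.H41.C3P
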