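import Cfsg.Agent.H41.C3TC.Kw.RTab

set_option autoImplicit false
set_option linter.all false
set_option Elab.async false

namespace Cfsg.Agent.H41.C3P

open Cfsg.Agent.H35

theorem tc3kw_rchk_480 : allR tc3kw_rf 80234 7 (480 * 2 ^ 7) = true := by decide +kernel
theorem tc3kw_rchk_481 : allR tc3kw_rf 80234 7 (481 * 2 ^ 7) = true := by decide +kernel
theorem tc3kw_rchk_482 : allR tc3kw_rf 80234 7 (482 * 2 ^ 7) = true := by decide +kernel
theorem tc3kw_rchk_483 : allR tc3kw_rf 80234 7 (483 * 2 ^ 7) = true := by decide +kernel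
theorem tc3kw_rchk_484 : allR tc3kw_rf 80234 7 (484 * 2 ^ 7) = true := by decide +kernel
theorem tc3kw_rchk_485 : allR tc3kw_rf 80234 7 (485 * 2 ^ 7) = true := by decide +kernel
theorem tc3kw_rchk_486 : allR tc3kw_rf 80234 7 (486 * 2 ^ 7) = true := by decide +kernel
theorem tc3kw_rchk_487 : allR tc3kw_rf 80234 7 (487 * 2 ^ 7) = true := by decide +kernel
theorem tc3kw_rchk_488 : allR tc3kw_rf 80234 7 (488 * 2 ^ 7) = true := by decide +kernel
theorem tc3kw_rchk_489 : allR tc3kw_rf 80234 7 (489 * 2 ^ 7) = true := by decide +kernel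
theorem tc3kw_rchk_490 : allR tc3kw_rf 80234 7 (490 * 2 ^ 7) = true := by decide +kernel
theorem tc3kw_rchk_491 : allR tc3kw_rf 80234 7 (491 * 2 ^ 7) = true := by decide +kernel
theorem tc3kw_rchk_492 : allR tc3kw_rf 80234 7 (492 * 2 ^ 7) = true := by decide +kernel
theorem tc3kw_rchk_493 : allR tc3kw_rf 80234 7 (493 * 2 ^ 7) = true := by decide +kernel
theorem tc3kw_rchk_494 : allR tc3kw_rf 80234 7 (494 * 2 ^ 7) = true := by decide +kernel
theorem tc3kw_rchk_495 : allR tc3kw_rf 80234 7 (495 * 2 ^ 7) = true := by decide +kernel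
theorem tc3kw_rchk_496 : allR tc3kw_rf 80234 7 (496 * 2 ^ 7) = true := by decide +kernel
theorem tc3kw_rchk_497 : allR tc3kw_rf 80234 7 (497 * 2 ^ 7) = true := by decide +kernel
theorem tc3kw_rchk_498 : allR tc3kw_rf 80234 7 (498 * 2 ^ 7) = true := by decide +kernel
theorem tc3kw_rchk_499 : allR tc3kw_rf 80234 7 (499 * 2 ^ 7) = true := by decide +kernel

theorem tc3kw_rfile_24 : ∀ k, k < 500 → 480 ≤ k → allR tc3kw_rf 80234 7 (k * 2 ^ 7) = true := by
  intro k h1 h2
  interval_cases k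
  · exact tc3kw_rchk_480
  · exact tc3kw_rchk_481
  · exact tc3kw_rchk_482
  · exact tc3kw_rchk_483
  · exact tc3kw_rchk_484
  · exact tc3kw_rchk_485
  · exact tc3kw_rchk_486
  · exact tc3kw_rchk_487
  · exact tc3kw_rchk_488
  · exact tc3kw_rchk_489
  · exact tc3kw_rchk_490
  · exact tc3kw_rchk_491
  · exact tc3kw_rchk_492
  · exact tc3kw_rchk_493
  · exact tc3kw_rchk_494
  · exact tc3kw_rchk_495
  · exact tc3kw_rchk_496
  · exact tc3kw_rchk_497
  · exact tc3kw_rchk_498
  · exact tc3kw_rchk_499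

end Cfsg.Agent.H41.C3P
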