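import Cfsg.Agent.H41.C3TC.Kw.RTab

set_option autoImplicit false
set_option linter.all false
set_option Elab.async false

namespace Cfsg.Agent.H41.C3P

open Cfsg.Agent.H35

theorem tc3kw_rchk_500 : allR tc3kw_rf 80234 7 (500 * 2 ^ 7) = true := by decide +kernel
theorem tc3kw_rchk_501 : allR tc3kw_rf 80234 7 (501 * 2 ^ 7) = true := by decide +kernel
theorem tc3kw_rchk_502 : allR tc3kw_rf 80234 7 (502 * 2 ^ 7) = true := by decide +kernel
theorem tc3kw_rchk_503 : allR tc3kw_rf 80234 7 (503 * 2 ^ 7) = true := by decide +kernel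
theorem tc3kw_rchk_504 : allR tc3kw_rf 80234 7 (504 * 2 ^ 7) = true := by decide +kernel
theorem tc3kw_rchk_505 : allR tc3kw_rf 80234 7 (505 * 2 ^ 7) = true := by decide +kernel
theorem tc3kw_rchk_506 : allR tc3kw_rf 80234 7 (506 * 2 ^ 7) = true := by decide +kernel
theorem tc3kw_rchk_507 : allR tc3kw_rf 80234 7 (507 * 2 ^ 7) = true := by decide +kernel
theorem tc3kw_rchk_508 : allR tc3kw_rf 80234 7 (508 * 2 ^ 7) = true := by decide +kernel
theorem tc3kw_rchk_509 : allR tc3kw_rf 80234 7 (509 * 2 ^ 7) = true := by decide +kernel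
theorem tc3kw_rchk_510 : allR tc3kw_rf 80234 7 (510 * 2 ^ 7) = true := by decide +kernel
theorem tc3kw_rchk_511 : allR tc3kw_rf 80234 7 (511 * 2 ^ 7) = true := by decide +kernel
theorem tc3kw_rchk_512 : allR tc3kw_rf 80234 7 (512 * 2 ^ 7) = true := by decide +kernel
theorem tc3kw_rchk_513 : allR tc3kw_rf 80234 7 (513 * 2 ^ 7) = true := by decide +kernel
theorem tc3kw_rchk_514 : allR tc3kw_rf 80234 7 (514 * 2 ^ 7) = true := by decide +kernel
theorem tc3kw_rchk_515 : allR tc3kw_rf 80234 7 (515 * 2 ^ 7) = true := by decide +kernel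
theorem tc3kw_rchk_516 : allR tc3kw_rf 80234 7 (516 * 2 ^ 7) = true := by decide +kernel
theorem tc3kw_rchk_517 : allR tc3kw_rf 80234 7 (517 * 2 ^ 7) = true := by decide +kernel
theorem tc3kw_rchk_518 : allR tc3kw_rf 80234 7 (518 * 2 ^ 7) = true := by decide +kernel
theorem tc3kw_rchk_519 : allR tc3kw_rf 80234 7 (519 * 2 ^ 7) = true := by decide +kernel

theorem tc3kw_rfile_25 : ∀ k, k < 520 → 500 ≤ k → allR tc3kw_rf 80234 7 (k * 2 ^ 7) = true := by
  intro k h1 h2
  interval_cases k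
  · exact tc3kw_rchk_500
  · exact tc3kw_rchk_501
  · exact tc3kw_rchk_502
  · exact tc3kw_rchk_503
  · exact tc3kw_rchk_504
  · exact tc3kw_rchk_505
  · exact tc3kw_rchk_506
  · exact tc3kw_rchk_507
  · exact tc3kw_rchk_508
  · exact tc3kw_rchk_509
  · exact tc3kw_rchk_510
  · exact tc3kw_rchk_511
  · exact tc3kw_rchk_512
  · exact tc3kw_rchk_513
  · exact tc3kw_rchk_514
  · exact tc3kw_rchk_515
  · exact tc3kw_rchk_516
  · exact tc3kw_rchk_517
  · exact tc3kw_rchk_518
  · exact tc3kw_rchk_519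

end Cfsg.Agent.H41.C3P
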