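import Cfsg.Agent.H41.C3TC.Kw.RTab

set_option autoImplicit false
set_option linter.all false
set_option Elab.async false

namespace Cfsg.Agent.H41.C3P

open Cfsg.Agent.H35

theorem tc3kw_rchk_520 : allR tc3kw_rf 80234 7 (520 * 2 ^ 7) = true := by decide +kernel
theorem tc3kw_rchk_521 : allR tc3kw_rf 80234 7 (521 * 2 ^ 7) = true := by decide +kernel
theorem tc3kw_rchk_522 : allR tc3kw_rf 80234 7 (522 * 2 ^ 7) = true := by decide +kernel
theorem tc3kw_rchk_523 : allR tc3kw_rf 80234 7 (523 * 2 ^ 7) = true := by decide +kernel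
theorem tc3kw_rchk_524 : allR tc3kw_rf 80234 7 (524 * 2 ^ 7) = true := by decide +kernel
theorem tc3kw_rchk_525 : allR tc3kw_rf 80234 7 (525 * 2 ^ 7) = true := by decide +kernel
theorem tc3kw_rchk_526 : allR tc3kw_rf 80234 7 (526 * 2 ^ 7) = true := by decide +kernel
theorem tc3kw_rchk_527 : allR tc3kw_rf 80234 7 (527 * 2 ^ 7) = true := by decide +kernel
theorem tc3kw_rchk_528 : allR tc3kw_rf 80234 7 (528 * 2 ^ 7) = true := by decide +kernel
theorem tc3kw_rchk_529 : allR tc3kw_rf 80234 7 (529 * 2 ^ 7) = true := by decide +kernel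
theorem tc3kw_rchk_530 : allR tc3kw_rf 80234 7 (530 * 2 ^ 7) = true := by decide +kernel
theorem tc3kw_rchk_531 : allR tc3kw_rf 80234 7 (531 * 2 ^ 7) = true := by decide +kernel
theorem tc3kw_rchk_532 : allR tc3kw_rf 80234 7 (532 * 2 ^ 7) = true := by decide +kernel
theorem tc3kw_rchk_533 : allR tc3kw_rf 80234 7 (533 * 2 ^ 7) = true := by decide +kernel
theorem tc3kw_rchk_534 : allR tc3kw_rf 80234 7 (534 * 2 ^ 7) = true := by decide +kernel
theorem tc3kw_rchk_535 : allR tc3kw_rf 80234 7 (535 * 2 ^ 7) = true := by decide +kernel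
theorem tc3kw_rchk_536 : allR tc3kw_rf 80234 7 (536 * 2 ^ 7) = true := by decide +kernel
theorem tc3kw_rchk_537 : allR tc3kw_rf 80234 7 (537 * 2 ^ 7) = true := by decide +kernel
theorem tc3kw_rchk_538 : allR tc3kw_rf 80234 7 (538 * 2 ^ 7) = true := by decide +kernel
theorem tc3kw_rchk_539 : allR tc3kw_rf 80234 7 (539 * 2 ^ 7) = true := by decide +kernel

theorem tc3kw_rfile_26 : ∀ k, k < 540 → 520 ≤ k → allR tc3kw_rf 80234 7 (k * 2 ^ 7) = true := by
  intro k h1 h2
  interval_cases k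
  · exact tc3kw_rchk_520
  · exact tc3kw_rchk_521
  · exact tc3kw_rchk_522
  · exact tc3kw_rchk_523
  · exact tc3kw_rchk_524
  · exact tc3kw_rchk_525
  · exact tc3kw_rchk_526
  · exact tc3kw_rchk_527
  · exact tc3kw_rchk_528
  · exact tc3kw_rchk_529
  · exact tc3kw_rchk_530
  · exact tc3kw_rchk_531
  · exact tc3kw_rchk_532
  · exact tc3kw_rchk_533
  · exact tc3kw_rchk_534
  · exact tc3kw_rchk_535
  · exact tc3kw_rchk_536
  · exact tc3kw_rchk_537
  · exact tc3kw_rchk_538
  · exact tc3kw_rchk_539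

end Cfsg.Agent.H41.C3P
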