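import Cfsg.Agent.H41.C3TC.Kw.RTab

set_option autoImplicit false
set_option linter.all false
set_option Elab.async false

namespace Cfsg.Agent.H41.C3P

open Cfsg.Agent.H35

theorem tc3kw_rchk_540 : allR tc3kw_rf 80234 7 (540 * 2 ^ 7) = true := by decide +kernel
theorem tc3kw_rchk_541 : allR tc3kw_rf 80234 7 (541 * 2 ^ 7) = true := by decide +kernel
theorem tc3kw_rchk_542 : allR tc3kw_rf 80234 7 (542 * 2 ^ 7) = true := by decide +kernel
theorem tc3kw_rchk_543 : allR tc3kw_rf 80234 7 (543 * 2 ^ 7) = true := by decide +kernel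
theorem tc3kw_rchk_544 : allR tc3kw_rf 80234 7 (544 * 2 ^ 7) = true := by decide +kernel
theorem tc3kw_rchk_545 : allR tc3kw_rf 80234 7 (545 * 2 ^ 7) = true := by decide +kernel
theorem tc3kw_rchk_546 : allR tc3kw_rf 80234 7 (546 * 2 ^ 7) = true := by decide +kernel
theorem tc3kw_rchk_547 : allR tc3kw_rf 80234 7 (547 * 2 ^ 7) = true := by decide +kernel
theorem tc3kw_rchk_548 : allR tc3kw_rf 80234 7 (548 * 2 ^ 7) = true := by decide +kernel
theorem tc3kw_rchk_549 : allR tc3kw_rf 80234 7 (549 * 2 ^ 7) = true := by decide +kernel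
theorem tc3kw_rchk_550 : allR tc3kw_rf 80234 7 (550 * 2 ^ 7) = true := by decide +kernel
theorem tc3kw_rchk_551 : allR tc3kw_rf 80234 7 (551 * 2 ^ 7) = true := by decide +kernel
theorem tc3kw_rchk_552 : allR tc3kw_rf 80234 7 (552 * 2 ^ 7) = true := by decide +kernel
theorem tc3kw_rchk_553 : allR tc3kw_rf 80234 7 (553 * 2 ^ 7) = true := by decide +kernel
theorem tc3kw_rchk_554 : allR tc3kw_rf 80234 7 (554 * 2 ^ 7) = true := by decide +kernel
theorem tc3kw_rchk_555 : allR tc3kw_rf 80234 7 (555 * 2 ^ 7) = true := by decide +kernel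
theorem tc3kw_rchk_556 : allR tc3kw_rf 80234 7 (556 * 2 ^ 7) = true := by decide +kernel
theorem tc3kw_rchk_557 : allR tc3kw_rf 80234 7 (557 * 2 ^ 7) = true := by decide +kernel
theorem tc3kw_rchk_558 : allR tc3kw_rf 80234 7 (558 * 2 ^ 7) = true := by decide +kernel
theorem tc3kw_rchk_559 : allR tc3kw_rf 80234 7 (559 * 2 ^ 7) = true := by decide +kernel

theorem tc3kw_rfile_27 : ∀ k, k < 560 → 540 ≤ k → allR tc3kw_rf 80234 7 (k * 2 ^ 7) = true := by
  intro k h1 h2
  interval_cases k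
  · exact tc3kw_rchk_540
  · exact tc3kw_rchk_541
  · exact tc3kw_rchk_542
  · exact tc3kw_rchk_543
  · exact tc3kw_rchk_544
  · exact tc3kw_rchk_545
  · exact tc3kw_rchk_546
  · exact tc3kw_rchk_547
  · exact tc3kw_rchk_548
  · exact tc3kw_rchk_549
  · exact tc3kw_rchk_550
  · exact tc3kw_rchk_551
  · exact tc3kw_rchk_552
  · exact tc3kw_rchk_553
  · exact tc3kw_rchk_554
  · exact tc3kw_rchk_555
  · exact tc3kw_rchk_556
  · exact tc3kw_rchk_557
  · exact tc3kw_rchk_558
  · exact tc3kw_rchk_559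

end Cfsg.Agent.H41.C3P
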