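import Cfsg.Agent.H41.C3TC.Kw.RTab

set_option autoImplicit false
set_option linter.all false
set_option Elab.async false

namespace Cfsg.Agent.H41.C3P

open Cfsg.Agent.H35

theorem tc3kw_rchk_560 : allR tc3kw_rf 80234 7 (560 * 2 ^ 7) = true := by decide +kernel
theorem tc3kw_rchk_561 : allR tc3kw_rf 80234 7 (561 * 2 ^ 7) = true := by decide +kernel
theorem tc3kw_rchk_562 : allR tc3kw_rf 80234 7 (562 * 2 ^ 7) = true := by decide +kernel
theorem tc3kw_rchk_563 : allR tc3kw_rf 80234 7 (563 * 2 ^ 7) = true := by decide +kernel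
theorem tc3kw_rchk_564 : allR tc3kw_rf 80234 7 (564 * 2 ^ 7) = true := by decide +kernel
theorem tc3kw_rchk_565 : allR tc3kw_rf 80234 7 (565 * 2 ^ 7) = true := by decide +kernel
theorem tc3kw_rchk_566 : allR tc3kw_rf 80234 7 (566 * 2 ^ 7) = true := by decide +kernel
theorem tc3kw_rchk_567 : allR tc3kw_rf 80234 7 (567 * 2 ^ 7) = true := by decide +kernel
theorem tc3kw_rchk_568 : allR tc3kw_rf 80234 7 (568 * 2 ^ 7) = true := by decide +kernel
theorem tc3kw_rchk_569 : allR tc3kw_rf 80234 7 (569 * 2 ^ 7) = true := by decide +kernel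
theorem tc3kw_rchk_570 : allR tc3kw_rf 80234 7 (570 * 2 ^ 7) = true := by decide +kernel
theorem tc3kw_rchk_571 : allR tc3kw_rf 80234 7 (571 * 2 ^ 7) = true := by decide +kernel
theorem tc3kw_rchk_572 : allR tc3kw_rf 80234 7 (572 * 2 ^ 7) = true := by decide +kernel
theorem tc3kw_rchk_573 : allR tc3kw_rf 80234 7 (573 * 2 ^ 7) = true := by decide +kernel
theorem tc3kw_rchk_574 : allR tc3kw_rf 80234 7 (574 * 2 ^ 7) = true := by decide +kernel
theorem tc3kw_rchk_575 : allR tc3kw_rf 80234 7 (575 * 2 ^ 7) = true := by decide +kernel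
theorem tc3kw_rchk_576 : allR tc3kw_rf 80234 7 (576 * 2 ^ 7) = true := by decide +kernel
theorem tc3kw_rchk_577 : allR tc3kw_rf 80234 7 (577 * 2 ^ 7) = true := by decide +kernel
theorem tc3kw_rchk_578 : allR tc3kw_rf 80234 7 (578 * 2 ^ 7) = true := by decide +kernel
theorem tc3kw_rchk_579 : allR tc3kw_rf 80234 7 (579 * 2 ^ 7) = true := by decide +kernel

theorem tc3kw_rfile_28 : ∀ k, k < 580 → 560 ≤ k → allR tc3kw_rf 80234 7 (k * 2 ^ 7) = true := by
  intro k h1 h2
  interval_cases k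
  · exact tc3kw_rchk_560
  · exact tc3kw_rchk_561
  · exact tc3kw_rchk_562
  · exact tc3kw_rchk_563
  · exact tc3kw_rchk_564
  · exact tc3kw_rchk_565
  · exact tc3kw_rchk_566
  · exact tc3kw_rchk_567
  · exact tc3kw_rchk_568
  · exact tc3kw_rchk_569
  · exact tc3kw_rchk_570
  · exact tc3kw_rchk_571
  · exact tc3kw_rchk_572
  · exact tc3kw_rchk_573
  · exact tc3kw_rchk_574
  · exact tc3kw_rchk_575
  · exact tc3kw_rchk_576
  · exact tc3kw_rchk_577
  · exact tc3kw_rchk_578
  · exact tc3kw_rchk_579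

end Cfsg.Agent.H41.C3P
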