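import Cfsg.Agent.H41.C3TC.Kw.RTab

set_option autoImplicit false
set_option linter.all false
set_option Elab.async false

namespace Cfsg.Agent.H41.C3P

open Cfsg.Agent.H35

theorem tc3kw_rchk_580 : allR tc3kw_rf 80234 7 (580 * 2 ^ 7) = true := by decide +kernel
theorem tc3kw_rchk_581 : allR tc3kw_rf 80234 7 (581 * 2 ^ 7) = true := by decide +kernel
theorem tc3kw_rchk_582 : allR tc3kw_rf 80234 7 (582 * 2 ^ 7) = true := by decide +kernel
theorem tc3kw_rchk_583 : allR tc3kw_rf 80234 7 (583 * 2 ^ 7) = true := by decide +kernel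
theorem tc3kw_rchk_584 : allR tc3kw_rf 80234 7 (584 * 2 ^ 7) = true := by decide +kernel
theorem tc3kw_rchk_585 : allR tc3kw_rf 80234 7 (585 * 2 ^ 7) = true := by decide +kernel
theorem tc3kw_rchk_586 : allR tc3kw_rf 80234 7 (586 * 2 ^ 7) = true := by decide +kernel
theorem tc3kw_rchk_587 : allR tc3kw_rf 80234 7 (587 * 2 ^ 7) = true := by decide +kernel
theorem tc3kw_rchk_588 : allR tc3kw_rf 80234 7 (588 * 2 ^ 7) = true := by decide +kernel
theorem tc3kw_rchk_589 : allR tc3kw_rf 80234 7 (589 * 2 ^ 7) = true := by decide +kernel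
theorem tc3kw_rchk_590 : allR tc3kw_rf 80234 7 (590 * 2 ^ 7) = true := by decide +kernel
theorem tc3kw_rchk_591 : allR tc3kw_rf 80234 7 (591 * 2 ^ 7) = true := by decide +kernel
theorem tc3kw_rchk_592 : allR tc3kw_rf 80234 7 (592 * 2 ^ 7) = true := by decide +kernel
theorem tc3kw_rchk_593 : allR tc3kw_rf 80234 7 (593 * 2 ^ 7) = true := by decide +kernel
theorem tc3kw_rchk_594 : allR tc3kw_rf 80234 7 (594 * 2 ^ 7) = true := by decide +kernel
theorem tc3kw_rchk_595 : allR tc3kw_rf 80234 7 (595 * 2 ^ 7) = true := by decide +kernel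
theorem tc3kw_rchk_596 : allR tc3kw_rf 80234 7 (596 * 2 ^ 7) = true := by decide +kernel
theorem tc3kw_rchk_597 : allR tc3kw_rf 80234 7 (597 * 2 ^ 7) = true := by decide +kernel
theorem tc3kw_rchk_598 : allR tc3kw_rf 80234 7 (598 * 2 ^ 7) = true := by decide +kernel
theorem tc3kw_rchk_599 : allR tc3kw_rf 80234 7 (599 * 2 ^ 7) = true := by decide +kernel

theorem tc3kw_rfile_29 : ∀ k, k < 600 → 580 ≤ k → allR tc3kw_rf 80234 7 (k * 2 ^ 7) = true := by
  intro k h1 h2
  interval_cases k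
  · exact tc3kw_rchk_580
  · exact tc3kw_rchk_581
  · exact tc3kw_rchk_582
  · exact tc3kw_rchk_583
  · exact tc3kw_rchk_584
  · exact tc3kw_rchk_585
  · exact tc3kw_rchk_586
  · exact tc3kw_rchk_587
  · exact tc3kw_rchk_588
  · exact tc3kw_rchk_589
  · exact tc3kw_rchk_590
  · exact tc3kw_rchk_591
  · exact tc3kw_rchk_592
  · exact tc3kw_rchk_593
  · exact tc3kw_rchk_594
  · exact tc3kw_rchk_595
  · exact tc3kw_rchk_596
  · exact tc3kw_rchk_597
  · exact tc3kw_rchk_598
  · exact tc3kw_rchk_599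

end Cfsg.Agent.H41.C3P
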