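import Cfsg.Agent.H41.C3TC.Kw.RTab

set_option autoImplicit false
set_option linter.all false
set_option Elab.async false

namespace Cfsg.Agent.H41.C3P

open Cfsg.Agent.H35

theorem tc3kw_rchk_60 : allR tc3kw_rf 80234 7 (60 * 2 ^ 7) = true := by decide +kernel
theorem tc3kw_rchk_61 : allR tc3kw_rf 80234 7 (61 * 2 ^ 7) = true := by decide +kernel
theorem tc3kw_rchk_62 : allR tc3kw_rf 80234 7 (62 * 2 ^ 7) = true := by decide +kernel
theorem tc3kw_rchk_63 : allR tc3kw_rf 80234 7 (63 * 2 ^ 7) = true := by decide +kernel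
theorem tc3kw_rchk_64 : allR tc3kw_rf 80234 7 (64 * 2 ^ 7) = true := by decide +kernel
theorem tc3kw_rchk_65 : allR tc3kw_rf 80234 7 (65 * 2 ^ 7) = true := by decide +kernel
theorem tc3kw_rchk_66 : allR tc3kw_rf 80234 7 (66 * 2 ^ 7) = true := by decide +kernel
theorem tc3kw_rchk_67 : allR tc3kw_rf 80234 7 (67 * 2 ^ 7) = true := by decide +kernel
theorem tc3kw_rchk_68 : allR tc3kw_rf 80234 7 (68 * 2 ^ 7) = true := by decide +kernel
theorem tc3kw_rchk_69 : allR tc3kw_rf 80234 7 (69 * 2 ^ 7) = true := by decide +kernel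
theorem tc3kw_rchk_70 : allR tc3kw_rf 80234 7 (70 * 2 ^ 7) = true := by decide +kernel
theorem tc3kw_rchk_71 : allR tc3kw_rf 80234 7 (71 * 2 ^ 7) = true := by decide +kernel
theorem tc3kw_rchk_72 : allR tc3kw_rf 80234 7 (72 * 2 ^ 7) = true := by decide +kernel
theorem tc3kw_rchk_73 : allR tc3kw_rf 80234 7 (73 * 2 ^ 7) = true := by decide +kernel
theorem tc3kw_rchk_74 : allR tc3kw_rf 80234 7 (74 * 2 ^ 7) = true := by decide +kernel
theorem tc3kw_rchk_75 : allR tc3kw_rf 80234 7 (75 * 2 ^ 7) = true := by decide +kernel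
theorem tc3kw_rchk_76 : allR tc3kw_rf 80234 7 (76 * 2 ^ 7) = true := by decide +kernel
theorem tc3kw_rchk_77 : allR tc3kw_rf 80234 7 (77 * 2 ^ 7) = true := by decide +kernel
theorem tc3kw_rchk_78 : allR tc3kw_rf 80234 7 (78 * 2 ^ 7) = true := by decide +kernel
theorem tc3kw_rchk_79 : allR tc3kw_rf 80234 7 (79 * 2 ^ 7) = true := by decide +kernel

theorem tc3kw_rfile_3 : ∀ k, k < 80 → 60 ≤ k → allR tc3kw_rf 80234 7 (k * 2 ^ 7) = true := by
  intro k h1 h2
  interval_cases k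
  · exact tc3kw_rchk_60
  · exact tc3kw_rchk_61
  · exact tc3kw_rchk_62
  · exact tc3kw_rchk_63
  · exact tc3kw_rchk_64
  · exact tc3kw_rchk_65
  · exact tc3kw_rchk_66
  · exact tc3kw_rchk_67
  · exact tc3kw_rchk_68
  · exact tc3kw_rchk_69
  · exact tc3kw_rchk_70
  · exact tc3kw_rchk_71
  · exact tc3kw_rchk_72
  · exact tc3kw_rchk_73
  · exact tc3kw_rchk_74
  · exact tc3kw_rchk_75
  · exact tc3kw_rchk_76
  · exact tc3kw_rchk_77
  · exact tc3kw_rchk_78
  · exact tc3kw_rchk_79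

end Cfsg.Agent.H41.C3P
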