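import Cfsg.Agent.H41.C3TC.Kw.RTab

set_option autoImplicit false
set_option linter.all false
set_option Elab.async false

namespace Cfsg.Agent.H41.C3P

open Cfsg.Agent.H35

theorem tc3kw_rchk_600 : allR tc3kw_rf 80234 7 (600 * 2 ^ 7) = true := by decide +kernel
theorem tc3kw_rchk_601 : allR tc3kw_rf 80234 7 (601 * 2 ^ 7) = true := by decide +kernel
theorem tc3kw_rchk_602 : allR tc3kw_rf 80234 7 (602 * 2 ^ 7) = true := by decide +kernel
theorem tc3kw_rchk_603 : allR tc3kw_rf 80234 7 (603 * 2 ^ 7) = true := by decide +kernel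
theorem tc3kw_rchk_604 : allR tc3kw_rf 80234 7 (604 * 2 ^ 7) = true := by decide +kernel
theorem tc3kw_rchk_605 : allR tc3kw_rf 80234 7 (605 * 2 ^ 7) = true := by decide +kernel
theorem tc3kw_rchk_606 : allR tc3kw_rf 80234 7 (606 * 2 ^ 7) = true := by decide +kernel
theorem tc3kw_rchk_607 : allR tc3kw_rf 80234 7 (607 * 2 ^ 7) = true := by decide +kernel
theorem tc3kw_rchk_608 : allR tc3kw_rf 80234 7 (608 * 2 ^ 7) = true := by decide +kernel
theorem tc3kw_rchk_609 : allR tc3kw_rf 80234 7 (609 * 2 ^ 7) = true := by decide +kernel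
theorem tc3kw_rchk_610 : allR tc3kw_rf 80234 7 (610 * 2 ^ 7) = true := by decide +kernel
theorem tc3kw_rchk_611 : allR tc3kw_rf 80234 7 (611 * 2 ^ 7) = true := by decide +kernel
theorem tc3kw_rchk_612 : allR tc3kw_rf 80234 7 (612 * 2 ^ 7) = true := by decide +kernel
theorem tc3kw_rchk_613 : allR tc3kw_rf 80234 7 (613 * 2 ^ 7) = true := by decide +kernel
theorem tc3kw_rchk_614 : allR tc3kw_rf 80234 7 (614 * 2 ^ 7) = true := by decide +kernel
theorem tc3kw_rchk_615 : allR tc3kw_rf 80234 7 (615 * 2 ^ 7) = true := by decide +kernel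
theorem tc3kw_rchk_616 : allR tc3kw_rf 80234 7 (616 * 2 ^ 7) = true := by decide +kernel
theorem tc3kw_rchk_617 : allR tc3kw_rf 80234 7 (617 * 2 ^ 7) = true := by decide +kernel
theorem tc3kw_rchk_618 : allR tc3kw_rf 80234 7 (618 * 2 ^ 7) = true := by decide +kernel
theorem tc3kw_rchk_619 : allR tc3kw_rf 80234 7 (619 * 2 ^ 7) = true := by decide +kernel

theorem tc3kw_rfile_30 : ∀ k, k < 620 → 600 ≤ k → allR tc3kw_rf 80234 7 (k * 2 ^ 7) = true := by
  intro k h1 h2
  interval_cases k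
  · exact tc3kw_rchk_600
  · exact tc3kw_rchk_601
  · exact tc3kw_rchk_602
  · exact tc3kw_rchk_603
  · exact tc3kw_rchk_604
  · exact tc3kw_rchk_605
  · exact tc3kw_rchk_606
  · exact tc3kw_rchk_607
  · exact tc3kw_rchk_608
  · exact tc3kw_rchk_609
  · exact tc3kw_rchk_610
  · exact tc3kw_rchk_611
  · exact tc3kw_rchk_612
  · exact tc3kw_rchk_613
  · exact tc3kw_rchk_614
  · exact tc3kw_rchk_615
  · exact tc3kw_rchk_616
  · exact tc3kw_rchk_617
  · exact tc3kw_rchk_618
  · exact tc3kw_rchk_619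

end Cfsg.Agent.H41.C3P
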