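import Cfsg.Agent.H41.C3TC.Kw.RTab

set_option autoImplicit false
set_option linter.all false
set_option Elab.async false

namespace Cfsg.Agent.H41.C3P

open Cfsg.Agent.H35

theorem tc3kw_rchk_620 : allR tc3kw_rf 80234 7 (620 * 2 ^ 7) = true := by decide +kernel
theorem tc3kw_rchk_621 : allR tc3kw_rf 80234 7 (621 * 2 ^ 7) = true := by decide +kernel
theorem tc3kw_rchk_622 : allR tc3kw_rf 80234 7 (622 * 2 ^ 7) = true := by decide +kernel
theorem tc3kw_rchk_623 : allR tc3kw_rf 80234 7 (623 * 2 ^ 7) = true := by decide +kernel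
theorem tc3kw_rchk_624 : allR tc3kw_rf 80234 7 (624 * 2 ^ 7) = true := by decide +kernel
theorem tc3kw_rchk_625 : allR tc3kw_rf 80234 7 (625 * 2 ^ 7) = true := by decide +kernel
theorem tc3kw_rchk_626 : allR tc3kw_rf 80234 7 (626 * 2 ^ 7) = true := by decide +kernel

theorem tc3kw_rfile_31 : ∀ k, k < 627 → 620 ≤ k → allR tc3kw_rf 80234 7 (k * 2 ^ 7) = true := by
  intro k h1 h2
  interval_cases k
  · exact tc3kw_rchk_620
  · exact tc3kw_rchk_621
  · exact tc3kw_rchk_622
  · exact tc3kw_rchk_623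
  · exact tc3kw_rchk_624
  · exact tc3kw_rchk_625
  · exact tc3kw_rchk_626

end Cfsg.Agent.H41.C3P
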