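import Cfsg.Agent.H41.C3TC.Kw.RTab

set_option autoImplicit false
set_option linter.all false
set_option Elab.async false

namespace Cfsg.Agent.H41.C3P

open Cfsg.Agent.H35

theorem tc3kw_rchk_80 : allR tc3kw_rf 80234 7 (80 * 2 ^ 7) = true := by decide +kernel
theorem tc3kw_rchk_81 : allR tc3kw_rf 80234 7 (81 * 2 ^ 7) = true := by decide +kernel
theorem tc3kw_rchk_82 : allR tc3kw_rf 80234 7 (82 * 2 ^ 7) = true := by decide +kernel
theorem tc3kw_rchk_83 : allR tc3kw_rf 80234 7 (83 * 2 ^ 7) = true := by decide +kernel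
theorem tc3kw_rchk_84 : allR tc3kw_rf 80234 7 (84 * 2 ^ 7) = true := by decide +kernel
theorem tc3kw_rchk_85 : allR tc3kw_rf 80234 7 (85 * 2 ^ 7) = true := by decide +kernel
theorem tc3kw_rchk_86 : allR tc3kw_rf 80234 7 (86 * 2 ^ 7) = true := by decide +kernel
theorem tc3kw_rchk_87 : allR tc3kw_rf 80234 7 (87 * 2 ^ 7) = true := by decide +kernel
theorem tc3kw_rchk_88 : allR tc3kw_rf 80234 7 (88 * 2 ^ 7) = true := by decide +kernel
theorem tc3kw_rchk_89 : allR tc3kw_rf 80234 7 (89 * 2 ^ 7) = true := by decide +kernel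
theorem tc3kw_rchk_90 : allR tc3kw_rf 80234 7 (90 * 2 ^ 7) = true := by decide +kernel
theorem tc3kw_rchk_91 : allR tc3kw_rf 80234 7 (91 * 2 ^ 7) = true := by decide +kernel
theorem tc3kw_rchk_92 : allR tc3kw_rf 80234 7 (92 * 2 ^ 7) = true := by decide +kernel
theorem tc3kw_rchk_93 : allR tc3kw_rf 80234 7 (93 * 2 ^ 7) = true := by decide +kernel
theorem tc3kw_rchk_94 : allR tc3kw_rf 80234 7 (94 * 2 ^ 7) = true := by decide +kernel
theorem tc3kw_rchk_95 : allR tc3kw_rf 80234 7 (95 * 2 ^ 7) = true := by decide +kernel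
theorem tc3kw_rchk_96 : allR tc3kw_rf 80234 7 (96 * 2 ^ 7) = true := by decide +kernel
theorem tc3kw_rchk_97 : allR tc3kw_rf 80234 7 (97 * 2 ^ 7) = true := by decide +kernel
theorem tc3kw_rchk_98 : allR tc3kw_rf 80234 7 (98 * 2 ^ 7) = true := by decide +kernel
theorem tc3kw_rchk_99 : allR tc3kw_rf 80234 7 (99 * 2 ^ 7) = true := by decide +kernel

theorem tc3kw_rfile_4 : ∀ k, k < 100 → 80 ≤ k → allR tc3kw_rf 80234 7 (k * 2 ^ 7) = true := by
  intro k h1 h2
  interval_cases k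
  · exact tc3kw_rchk_80
  · exact tc3kw_rchk_81
  · exact tc3kw_rchk_82
  · exact tc3kw_rchk_83
  · exact tc3kw_rchk_84
  · exact tc3kw_rchk_85
  · exact tc3kw_rchk_86
  · exact tc3kw_rchk_87
  · exact tc3kw_rchk_88
  · exact tc3kw_rchk_89
  · exact tc3kw_rchk_90
  · exact tc3kw_rchk_91
  · exact tc3kw_rchk_92
  · exact tc3kw_rchk_93
  · exact tc3kw_rchk_94
  · exact tc3kw_rchk_95
  · exact tc3kw_rchk_96
  · exact tc3kw_rchk_97
  · exact tc3kw_rchk_98
  · exact tc3kw_rchk_99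

end Cfsg.Agent.H41.C3P
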