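import Cfsg.Agent.H41.C3TC.Kw.RTab

set_option autoImplicit false
set_option linter.all false
set_option Elab.async false

namespace Cfsg.Agent.H41.C3P

open Cfsg.Agent.H35

theorem tc3kw_rchk_100 : allR tc3kw_rf 80234 7 (100 * 2 ^ 7) = true := by decide +kernel
theorem tc3kw_rchk_101 : allR tc3kw_rf 80234 7 (101 * 2 ^ 7) = true := by decide +kernel
theorem tc3kw_rchk_102 : allR tc3kw_rf 80234 7 (102 * 2 ^ 7) = true := by decide +kernel
theorem tc3kw_rchk_103 : allR tc3kw_rf 80234 7 (103 * 2 ^ 7) = true := by decide +kernel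
theorem tc3kw_rchk_104 : allR tc3kw_rf 80234 7 (104 * 2 ^ 7) = true := by decide +kernel
theorem tc3kw_rchk_105 : allR tc3kw_rf 80234 7 (105 * 2 ^ 7) = true := by decide +kernel
theorem tc3kw_rchk_106 : allR tc3kw_rf 80234 7 (106 * 2 ^ 7) = true := by decide +kernel
theorem tc3kw_rchk_107 : allR tc3kw_rf 80234 7 (107 * 2 ^ 7) = true := by decide +kernel
theorem tc3kw_rchk_108 : allR tc3kw_rf 80234 7 (108 * 2 ^ 7) = true := by decide +kernel
theorem tc3kw_rchk_109 : allR tc3kw_rf 80234 7 (109 * 2 ^ 7) = true := by decide +kernel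
theorem tc3kw_rchk_110 : allR tc3kw_rf 80234 7 (110 * 2 ^ 7) = true := by decide +kernel
theorem tc3kw_rchk_111 : allR tc3kw_rf 80234 7 (111 * 2 ^ 7) = true := by decide +kernel
theorem tc3kw_rchk_112 : allR tc3kw_rf 80234 7 (112 * 2 ^ 7) = true := by decide +kernel
theorem tc3kw_rchk_113 : allR tc3kw_rf 80234 7 (113 * 2 ^ 7) = true := by decide +kernel
theorem tc3kw_rchk_114 : allR tc3kw_rf 80234 7 (114 * 2 ^ 7) = true := by decide +kernel
theorem tc3kw_rchk_115 : allR tc3kw_rf 80234 7 (115 * 2 ^ 7) = true := by decide +kernel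
theorem tc3kw_rchk_116 : allR tc3kw_rf 80234 7 (116 * 2 ^ 7) = true := by decide +kernel
theorem tc3kw_rchk_117 : allR tc3kw_rf 80234 7 (117 * 2 ^ 7) = true := by decide +kernel
theorem tc3kw_rchk_118 : allR tc3kw_rf 80234 7 (118 * 2 ^ 7) = true := by decide +kernel
theorem tc3kw_rchk_119 : allR tc3kw_rf 80234 7 (119 * 2 ^ 7) = true := by decide +kernel

theorem tc3kw_rfile_5 : ∀ k, k < 120 → 100 ≤ k → allR tc3kw_rf 80234 7 (k * 2 ^ 7) = true := by
  intro k h1 h2
  interval_cases k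
  · exact tc3kw_rchk_100
  · exact tc3kw_rchk_101
  · exact tc3kw_rchk_102
  · exact tc3kw_rchk_103
  · exact tc3kw_rchk_104
  · exact tc3kw_rchk_105
  · exact tc3kw_rchk_106
  · exact tc3kw_rchk_107
  · exact tc3kw_rchk_108
  · exact tc3kw_rchk_109
  · exact tc3kw_rchk_110
  · exact tc3kw_rchk_111
  · exact tc3kw_rchk_112
  · exact tc3kw_rchk_113
  · exact tc3kw_rchk_114
  · exact tc3kw_rchk_115
  · exact tc3kw_rchk_116
  · exact tc3kw_rchk_117
  · exact tc3kw_rchk_118
  · exact tc3kw_rchk_119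

end Cfsg.Agent.H41.C3P
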