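import Cfsg.Agent.H41.C3TC.Kw.RTab

set_option autoImplicit false
set_option linter.all false
set_option Elab.async false

namespace Cfsg.Agent.H41.C3P

open Cfsg.Agent.H35

theorem tc3kw_rchk_120 : allR tc3kw_rf 80234 7 (120 * 2 ^ 7) = true := by decide +kernel
theorem tc3kw_rchk_121 : allR tc3kw_rf 80234 7 (121 * 2 ^ 7) = true := by decide +kernel
theorem tc3kw_rchk_122 : allR tc3kw_rf 80234 7 (122 * 2 ^ 7) = true := by decide +kernel
theorem tc3kw_rchk_123 : allR tc3kw_rf 80234 7 (123 * 2 ^ 7) = true := by decide +kernel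
theorem tc3kw_rchk_124 : allR tc3kw_rf 80234 7 (124 * 2 ^ 7) = true := by decide +kernel
theorem tc3kw_rchk_125 : allR tc3kw_rf 80234 7 (125 * 2 ^ 7) = true := by decide +kernel
theorem tc3kw_rchk_126 : allR tc3kw_rf 80234 7 (126 * 2 ^ 7) = true := by decide +kernel
theorem tc3kw_rchk_127 : allR tc3kw_rf 80234 7 (127 * 2 ^ 7) = true := by decide +kernel
theorem tc3kw_rchk_128 : allR tc3kw_rf 80234 7 (128 * 2 ^ 7) = true := by decide +kernel
theorem tc3kw_rchk_129 : allR tc3kw_rf 80234 7 (129 * 2 ^ 7) = true := by decide +kernel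
theorem tc3kw_rchk_130 : allR tc3kw_rf 80234 7 (130 * 2 ^ 7) = true := by decide +kernel
theorem tc3kw_rchk_131 : allR tc3kw_rf 80234 7 (131 * 2 ^ 7) = true := by decide +kernel
theorem tc3kw_rchk_132 : allR tc3kw_rf 80234 7 (132 * 2 ^ 7) = true := by decide +kernel
theorem tc3kw_rchk_133 : allR tc3kw_rf 80234 7 (133 * 2 ^ 7) = true := by decide +kernel
theorem tc3kw_rchk_134 : allR tc3kw_rf 80234 7 (134 * 2 ^ 7) = true := by decide +kernel
theorem tc3kw_rchk_135 : allR tc3kw_rf 80234 7 (135 * 2 ^ 7) = true := by decide +kernel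
theorem tc3kw_rchk_136 : allR tc3kw_rf 80234 7 (136 * 2 ^ 7) = true := by decide +kernel
theorem tc3kw_rchk_137 : allR tc3kw_rf 80234 7 (137 * 2 ^ 7) = true := by decide +kernel
theorem tc3kw_rchk_138 : allR tc3kw_rf 80234 7 (138 * 2 ^ 7) = true := by decide +kernel
theorem tc3kw_rchk_139 : allR tc3kw_rf 80234 7 (139 * 2 ^ 7) = true := by decide +kernel

theorem tc3kw_rfile_6 : ∀ k, k < 140 → 120 ≤ k → allR tc3kw_rf 80234 7 (k * 2 ^ 7) = true := by
  intro k h1 h2
  interval_cases k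
  · exact tc3kw_rchk_120
  · exact tc3kw_rchk_121
  · exact tc3kw_rchk_122
  · exact tc3kw_rchk_123
  · exact tc3kw_rchk_124
  · exact tc3kw_rchk_125
  · exact tc3kw_rchk_126
  · exact tc3kw_rchk_127
  · exact tc3kw_rchk_128
  · exact tc3kw_rchk_129
  · exact tc3kw_rchk_130
  · exact tc3kw_rchk_131
  · exact tc3kw_rchk_132
  · exact tc3kw_rchk_133
  · exact tc3kw_rchk_134
  · exact tc3kw_rchk_135
  · exact tc3kw_rchk_136
  · exact tc3kw_rchk_137
  · exact tc3kw_rchk_138
  · exact tc3kw_rchk_139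

end Cfsg.Agent.H41.C3P
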