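import Cfsg.Agent.H41.C3TC.Kw.RTab

set_option autoImplicit false
set_option linter.all false
set_option Elab.async false

namespace Cfsg.Agent.H41.C3P

open Cfsg.Agent.H35

theorem tc3kw_rchk_140 : allR tc3kw_rf 80234 7 (140 * 2 ^ 7) = true := by decide +kernel
theorem tc3kw_rchk_141 : allR tc3kw_rf 80234 7 (141 * 2 ^ 7) = true := by decide +kernel
theorem tc3kw_rchk_142 : allR tc3kw_rf 80234 7 (142 * 2 ^ 7) = true := by decide +kernel
theorem tc3kw_rchk_143 : allR tc3kw_rf 80234 7 (143 * 2 ^ 7) = true := by decide +kernel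
theorem tc3kw_rchk_144 : allR tc3kw_rf 80234 7 (144 * 2 ^ 7) = true := by decide +kernel
theorem tc3kw_rchk_145 : allR tc3kw_rf 80234 7 (145 * 2 ^ 7) = true := by decide +kernel
theorem tc3kw_rchk_146 : allR tc3kw_rf 80234 7 (146 * 2 ^ 7) = true := by decide +kernel
theorem tc3kw_rchk_147 : allR tc3kw_rf 80234 7 (147 * 2 ^ 7) = true := by decide +kernel
theorem tc3kw_rchk_148 : allR tc3kw_rf 80234 7 (148 * 2 ^ 7) = true := by decide +kernel
theorem tc3kw_rchk_149 : allR tc3kw_rf 80234 7 (149 * 2 ^ 7) = true := by decide +kernel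
theorem tc3kw_rchk_150 : allR tc3kw_rf 80234 7 (150 * 2 ^ 7) = true := by decide +kernel
theorem tc3kw_rchk_151 : allR tc3kw_rf 80234 7 (151 * 2 ^ 7) = true := by decide +kernel
theorem tc3kw_rchk_152 : allR tc3kw_rf 80234 7 (152 * 2 ^ 7) = true := by decide +kernel
theorem tc3kw_rchk_153 : allR tc3kw_rf 80234 7 (153 * 2 ^ 7) = true := by decide +kernel
theorem tc3kw_rchk_154 : allR tc3kw_rf 80234 7 (154 * 2 ^ 7) = true := by decide +kernel
theorem tc3kw_rchk_155 : allR tc3kw_rf 80234 7 (155 * 2 ^ 7) = true := by decide +kernel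
theorem tc3kw_rchk_156 : allR tc3kw_rf 80234 7 (156 * 2 ^ 7) = true := by decide +kernel
theorem tc3kw_rchk_157 : allR tc3kw_rf 80234 7 (157 * 2 ^ 7) = true := by decide +kernel
theorem tc3kw_rchk_158 : allR tc3kw_rf 80234 7 (158 * 2 ^ 7) = true := by decide +kernel
theorem tc3kw_rchk_159 : allR tc3kw_rf 80234 7 (159 * 2 ^ 7) = true := by decide +kernel

theorem tc3kw_rfile_7 : ∀ k, k < 160 → 140 ≤ k → allR tc3kw_rf 80234 7 (k * 2 ^ 7) = true := by
  intro k h1 h2
  interval_cases k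
  · exact tc3kw_rchk_140
  · exact tc3kw_rchk_141
  · exact tc3kw_rchk_142
  · exact tc3kw_rchk_143
  · exact tc3kw_rchk_144
  · exact tc3kw_rchk_145
  · exact tc3kw_rchk_146
  · exact tc3kw_rchk_147
  · exact tc3kw_rchk_148
  · exact tc3kw_rchk_149
  · exact tc3kw_rchk_150
  · exact tc3kw_rchk_151
  · exact tc3kw_rchk_152
  · exact tc3kw_rchk_153
  · exact tc3kw_rchk_154
  · exact tc3kw_rchk_155
  · exact tc3kw_rchk_156
  · exact tc3kw_rchk_157
  · exact tc3kw_rchk_158
  · exact tc3kw_rchk_159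

end Cfsg.Agent.H41.C3P
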