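import Cfsg.Agent.H41.C3TC.Kw.RTab

set_option autoImplicit false
set_option linter.all false
set_option Elab.async false

namespace Cfsg.Agent.H41.C3P

open Cfsg.Agent.H35

theorem tc3kw_rchk_160 : allR tc3kw_rf 80234 7 (160 * 2 ^ 7) = true := by decide +kernel
theorem tc3kw_rchk_161 : allR tc3kw_rf 80234 7 (161 * 2 ^ 7) = true := by decide +kernel
theorem tc3kw_rchk_162 : allR tc3kw_rf 80234 7 (162 * 2 ^ 7) = true := by decide +kernel
theorem tc3kw_rchk_163 : allR tc3kw_rf 80234 7 (163 * 2 ^ 7) = true := by decide +kernel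
theorem tc3kw_rchk_164 : allR tc3kw_rf 80234 7 (164 * 2 ^ 7) = true := by decide +kernel
theorem tc3kw_rchk_165 : allR tc3kw_rf 80234 7 (165 * 2 ^ 7) = true := by decide +kernel
theorem tc3kw_rchk_166 : allR tc3kw_rf 80234 7 (166 * 2 ^ 7) = true := by decide +kernel
theorem tc3kw_rchk_167 : allR tc3kw_rf 80234 7 (167 * 2 ^ 7) = true := by decide +kernel
theorem tc3kw_rchk_168 : allR tc3kw_rf 80234 7 (168 * 2 ^ 7) = true := by decide +kernel
theorem tc3kw_rchk_169 : allR tc3kw_rf 80234 7 (169 * 2 ^ 7) = true := by decide +kernel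
theorem tc3kw_rchk_170 : allR tc3kw_rf 80234 7 (170 * 2 ^ 7) = true := by decide +kernel
theorem tc3kw_rchk_171 : allR tc3kw_rf 80234 7 (171 * 2 ^ 7) = true := by decide +kernel
theorem tc3kw_rchk_172 : allR tc3kw_rf 80234 7 (172 * 2 ^ 7) = true := by decide +kernel
theorem tc3kw_rchk_173 : allR tc3kw_rf 80234 7 (173 * 2 ^ 7) = true := by decide +kernel
theorem tc3kw_rchk_174 : allR tc3kw_rf 80234 7 (174 * 2 ^ 7) = true := by decide +kernel
theorem tc3kw_rchk_175 : allR tc3kw_rf 80234 7 (175 * 2 ^ 7) = true := by decide +kernel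
theorem tc3kw_rchk_176 : allR tc3kw_rf 80234 7 (176 * 2 ^ 7) = true := by decide +kernel
theorem tc3kw_rchk_177 : allR tc3kw_rf 80234 7 (177 * 2 ^ 7) = true := by decide +kernel
theorem tc3kw_rchk_178 : allR tc3kw_rf 80234 7 (178 * 2 ^ 7) = true := by decide +kernel
theorem tc3kw_rchk_179 : allR tc3kw_rf 80234 7 (179 * 2 ^ 7) = true := by decide +kernel

theorem tc3kw_rfile_8 : ∀ k, k < 180 → 160 ≤ k → allR tc3kw_rf 80234 7 (k * 2 ^ 7) = true := by
  intro k h1 h2
  interval_cases k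
  · exact tc3kw_rchk_160
  · exact tc3kw_rchk_161
  · exact tc3kw_rchk_162
  · exact tc3kw_rchk_163
  · exact tc3kw_rchk_164
  · exact tc3kw_rchk_165
  · exact tc3kw_rchk_166
  · exact tc3kw_rchk_167
  · exact tc3kw_rchk_168
  · exact tc3kw_rchk_169
  · exact tc3kw_rchk_170
  · exact tc3kw_rchk_171
  · exact tc3kw_rchk_172
  · exact tc3kw_rchk_173
  · exact tc3kw_rchk_174
  · exact tc3kw_rchk_175
  · exact tc3kw_rchk_176
  · exact tc3kw_rchk_177
  · exact tc3kw_rchk_178
  · exact tc3kw_rchk_179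

end Cfsg.Agent.H41.C3P
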