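import Cfsg.Agent.H41.C3TC.Kw.RTab

set_option autoImplicit false
set_option linter.all false
set_option Elab.async false

namespace Cfsg.Agent.H41.C3P

open Cfsg.Agent.H35

theorem tc3kw_rchk_180 : allR tc3kw_rf 80234 7 (180 * 2 ^ 7) = true := by decide +kernel
theorem tc3kw_rchk_181 : allR tc3kw_rf 80234 7 (181 * 2 ^ 7) = true := by decide +kernel
theorem tc3kw_rchk_182 : allR tc3kw_rf 80234 7 (182 * 2 ^ 7) = true := by decide +kernel
theorem tc3kw_rchk_183 : allR tc3kw_rf 80234 7 (183 * 2 ^ 7) = true := by decide +kernel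
theorem tc3kw_rchk_184 : allR tc3kw_rf 80234 7 (184 * 2 ^ 7) = true := by decide +kernel
theorem tc3kw_rchk_185 : allR tc3kw_rf 80234 7 (185 * 2 ^ 7) = true := by decide +kernel
theorem tc3kw_rchk_186 : allR tc3kw_rf 80234 7 (186 * 2 ^ 7) = true := by decide +kernel
theorem tc3kw_rchk_187 : allR tc3kw_rf 80234 7 (187 * 2 ^ 7) = true := by decide +kernel
theorem tc3kw_rchk_188 : allR tc3kw_rf 80234 7 (188 * 2 ^ 7) = true := by decide +kernel
theorem tc3kw_rchk_189 : allR tc3kw_rf 80234 7 (189 * 2 ^ 7) = true := by decide +kernel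
theorem tc3kw_rchk_190 : allR tc3kw_rf 80234 7 (190 * 2 ^ 7) = true := by decide +kernel
theorem tc3kw_rchk_191 : allR tc3kw_rf 80234 7 (191 * 2 ^ 7) = true := by decide +kernel
theorem tc3kw_rchk_192 : allR tc3kw_rf 80234 7 (192 * 2 ^ 7) = true := by decide +kernel
theorem tc3kw_rchk_193 : allR tc3kw_rf 80234 7 (193 * 2 ^ 7) = true := by decide +kernel
theorem tc3kw_rchk_194 : allR tc3kw_rf 80234 7 (194 * 2 ^ 7) = true := by decide +kernel
theorem tc3kw_rchk_195 : allR tc3kw_rf 80234 7 (195 * 2 ^ 7) = true := by decide +kernel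
theorem tc3kw_rchk_196 : allR tc3kw_rf 80234 7 (196 * 2 ^ 7) = true := by decide +kernel
theorem tc3kw_rchk_197 : allR tc3kw_rf 80234 7 (197 * 2 ^ 7) = true := by decide +kernel
theorem tc3kw_rchk_198 : allR tc3kw_rf 80234 7 (198 * 2 ^ 7) = true := by decide +kernel
theorem tc3kw_rchk_199 : allR tc3kw_rf 80234 7 (199 * 2 ^ 7) = true := by decide +kernel

theorem tc3kw_rfile_9 : ∀ k, k < 200 → 180 ≤ k → allR tc3kw_rf 80234 7 (k * 2 ^ 7) = true := by
  intro k h1 h2
  interval_cases k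
  · exact tc3kw_rchk_180
  · exact tc3kw_rchk_181
  · exact tc3kw_rchk_182
  · exact tc3kw_rchk_183
  · exact tc3kw_rchk_184
  · exact tc3kw_rchk_185
  · exact tc3kw_rchk_186
  · exact tc3kw_rchk_187
  · exact tc3kw_rchk_188
  · exact tc3kw_rchk_189
  · exact tc3kw_rchk_190
  · exact tc3kw_rchk_191
  · exact tc3kw_rchk_192
  · exact tc3kw_rchk_193
  · exact tc3kw_rchk_194
  · exact tc3kw_rchk_195
  · exact tc3kw_rchk_196
  · exact tc3kw_rchk_197
  · exact tc3kw_rchk_198
  · exact tc3kw_rchk_199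

end Cfsg.Agent.H41.C3P
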